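import Mathlib
import Cfsg.Prelude.Def_Blocks
import Cfsg.Agent.Lib.Helper3.Spectral
import Cfsg.Agent.Lib.Helper76.GaloisConj

/-!
helper81: piece S4503/T2 for helper74 — a Galois conjugate `χb = ξ ∘ (· ^ a)` of `ξ` agreeing
with `ξ` on `p`-regular elements and "orthogonal to `ξ` on every coset `P c`", `c ∈ C_G(P)`,
when the support of `ξ|_P` is a single `N_G(P)`-orbit and `|N_G(P) : C_G(P)| < p - 1`.
-/

set_option autoImplicit false

namespace Cfsg.Agent.Lib.Helper81.BrT2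

open Cfsg
open scoped ComplexConjugate

universe u
variable {G : Type u} [Group G]

/-- Orthogonality of the linear characters of a finite group. -/
theorem orth_lin {A : Type*} [Group A] [Fintype A] (ψ ψ' : A →* ℂˣ) :
    ∑ u : A, ((ψ u : ℂˣ) : ℂ) * conj ((ψ' u : ℂˣ) : ℂ) =
      if ψ = ψ' then (Fintype.card A : ℂ) else 0 := by
  classical
  have hconj : ∀ u : A, conj ((ψ' u : ℂˣ) : ℂ) = (((ψ' u)⁻¹ : ℂˣ) : ℂ) := by
    intro u
    have h1 : ((ψ' u : ℂˣ) : ℂ) ^ Fintype.card A = 1 := by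
      rw [← Units.val_pow_eq_pow_val, ← map_pow, pow_card_eq_one, map_one, Units.val_one]
    have h2 : ‖((ψ' u : ℂˣ) : ℂ)‖ = 1 :=
      Complex.norm_eq_one_of_pow_eq_one h1 Fintype.card_ne_zero
    rw [Units.val_inv_eq_inv_val, Complex.inv_eq_conj h2]
  have hterm : ∀ u : A, ((ψ u : ℂˣ) : ℂ) * conj ((ψ' u : ℂˣ) : ℂ) =
      ((Units.coeHom ℂ).comp (ψ * ψ'⁻¹)) u := by
    intro u
    rw [hconj u]
    simp [MonoidHom.mul_apply, MonoidHom.inv_apply]
  simp_rw [hterm]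
  rw [sum_hom_units]
  have hiff : ((Units.coeHom ℂ).comp (ψ * ψ'⁻¹) = 1) ↔ ψ = ψ' := by
    constructor
    · intro h
      have h2 : ψ * ψ'⁻¹ = 1 := by
        ext u
        have := DFunLike.congr_fun h u
        simpa using this
      exact mul_inv_eq_one.mp h2
    · rintro rfl
      ext u
      simp
  simp only [hiff]
  split_ifs <;> simp

theorem pow_apply_eigen' {V : Type*} [AddCommGroup V] [Module ℂ V] (T : V →ₗ[ℂ] V) (v : V)
    (c : ℂ) (h : T v = c • v) (i : ℕ) : (T ^ i) v = c ^ i • v := by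
  induction i with
  | zero => simp
  | succ i ih =>
    rw [pow_succ, Module.End.mul_apply, h, map_smul, ih, smul_smul, pow_succ']

/-- `ψ` is an `N_G(P)`-conjugate of `ψ₀` (in the form used by the statement). -/
def Orb (p : ℕ) [Fact p.Prime] (P : Sylow p G) (ψ₀ ψ : ↥(P : Subgroup G) →* ℂˣ) : Prop :=
  ∃ n : G, n ∈ Subgroup.normalizer ((P : Subgroup G) : Set G) ∧
    ∀ (u u' : ↥(P : Subgroup G)), (u' : G) = n * (u : G) * n⁻¹ → ψ u = ψ₀ u'

theorem pow_eq_of_modEq' {M : Type*} [Group M] (x : M) (p a b : ℕ) (hx : x ^ p = 1)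
    (h : a ≡ b [MOD p]) : x ^ a = x ^ b := by
  apply pow_eq_pow_iff_modEq.mpr
  exact h.of_dvd (orderOf_dvd_of_pow_eq_one hx)

/-- Choice of the exponent. -/
theorem exists_a [Finite G] (p : ℕ) [Fact p.Prime] (P : Sylow p G)
    (hP : Nat.card (P : Subgroup G) = p)
    (hf : (Subgroup.centralizer ((P : Subgroup G) : Set G)).relIndex
      (Subgroup.normalizer ((P : Subgroup G) : Set G)) + 1 < p)
    (ψ₀ : ↥(P : Subgroup G) →* ℂˣ) (hψ₀ : ψ₀ ≠ 1) :
    ∃ a : ℕ, a.Coprime (Nat.card G) ∧ (∀ g : G, ¬ p ∣ orderOf g → g ^ a = g) ∧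
      ¬ Orb p P ψ₀ ((powMonoidHom a).comp ψ₀) := by
  classical
  have hp : p.Prime := Fact.out
  have hup : ∀ u : ↥(P : Subgroup G), u ^ p = 1 := by
    intro u
    have h := pow_card_eq_one' (x := u)
    rwa [hP] at h
  have hψp : ∀ u : ↥(P : Subgroup G), (ψ₀ u) ^ p = 1 := by
    intro u
    rw [← map_pow, hup u, map_one]
  obtain ⟨u₁, hu₁⟩ : ∃ u₁ : ↥(P : Subgroup G), ψ₀ u₁ ≠ 1 := by
    by_contra h
    push Not at h
    apply hψ₀
    ext u
    rw [h u]; rfl
  have hord : orderOf (ψ₀ u₁) = p := orderOf_eq_prime (hψp u₁) hu₁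
  -- Step A
  have hA : ∃ s, 0 < s ∧ s < p ∧ ¬ Orb p P ψ₀ ((powMonoidHom s).comp ψ₀) := by
    by_contra hall
    push Not at hall
    have hall' : ∀ s : Fin (p - 1), Orb p P ψ₀ ((powMonoidHom (s.val + 1)).comp ψ₀) := fun s =>
      hall (s.val + 1) (Nat.succ_pos _) (by have := s.isLt; omega)
    choose n hn hnψ using hall'
    let F : Fin (p - 1) → (↥(Subgroup.normalizer ((P : Subgroup G) : Set G)) ⧸
        (Subgroup.centralizer ((P : Subgroup G) : Set G)).subgroupOf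
          (Subgroup.normalizer ((P : Subgroup G) : Set G))) :=
      fun s => QuotientGroup.mk ⟨n s, hn s⟩
    have hinj : Function.Injective F := by
      intro s s' hss
      have h1 := QuotientGroup.eq.mp hss
      rw [Subgroup.mem_subgroupOf] at h1
      have hc : (n s)⁻¹ * n s' ∈ Subgroup.centralizer ((P : Subgroup G) : Set G) := by
        simpa using h1
      have heq : (ψ₀ u₁) ^ (s.val + 1) = (ψ₀ u₁) ^ (s'.val + 1) := by
        have hu1 : n s * (u₁ : G) * (n s)⁻¹ ∈ (P : Subgroup G) :=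
          (Subgroup.mem_normalizer_iff.mp (hn s) (u₁ : G)).mp u₁.2
        have e1 := hnψ s u₁ ⟨_, hu1⟩ rfl
        have e2 := hnψ s' u₁ ⟨_, hu1⟩ (by
          show n s * (u₁ : G) * (n s)⁻¹ = n s' * (u₁ : G) * (n s')⁻¹
          have hcu := Subgroup.mem_centralizer_iff.mp hc (u₁ : G) u₁.2
          have h2 : n s' = n s * ((n s)⁻¹ * n s') := by group
          rw [h2]
          have h3 : n s * ((n s)⁻¹ * n s') * (u₁ : G) * (n s * ((n s)⁻¹ * n s'))⁻¹
              = n s * (((n s)⁻¹ * n s') * (u₁ : G)) * ((n s)⁻¹ * n s')⁻¹ * (n s)⁻¹ := by group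
          rw [h3, ← hcu]; group)
        simp only [MonoidHom.comp_apply, powMonoidHom_apply] at e1 e2
        rw [e1, e2]
      have hmod := (pow_eq_pow_iff_modEq.mp heq)
      rw [hord] at hmod
      have := Nat.ModEq.eq_of_lt_of_lt hmod (by have := s.isLt; omega) (by have := s'.isLt; omega)
      exact Fin.ext (by omega)
    have hcard := Nat.card_le_card_of_injective F hinj
    rw [Nat.card_fin] at hcard
    have hidx : Nat.card (↥(Subgroup.normalizer ((P : Subgroup G) : Set G)) ⧸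
        (Subgroup.centralizer ((P : Subgroup G) : Set G)).subgroupOf
          (Subgroup.normalizer ((P : Subgroup G) : Set G))) =
        (Subgroup.centralizer ((P : Subgroup G) : Set G)).relIndex
          (Subgroup.normalizer ((P : Subgroup G) : Set G)) := rfl
    rw [hidx] at hcard
    omega
  obtain ⟨s, hs0, hsp, hsO⟩ := hA
  -- Step B
  have hidx : ¬ p ∣ (P : Subgroup G).index := P.not_dvd_index
  have hG : Nat.card G = p * (P : Subgroup G).index := by
    have h := (P : Subgroup G).card_mul_index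
    rw [hP] at h
    exact h.symm
  have hcop : Nat.Coprime p (P : Subgroup G).index := (Nat.Prime.coprime_iff_not_dvd hp).mpr hidx
  obtain ⟨a, ha1, ha2⟩ := Nat.chineseRemainder hcop s 1
  refine ⟨a, ?_, ?_, ?_⟩
  · rw [hG]
    apply Nat.Coprime.mul_right
    · have : ¬ p ∣ a := by
        intro h
        have := (ha1.dvd_iff (dvd_refl p)).mp h
        exact absurd (Nat.le_of_dvd hs0 this) (by omega)
      exact ((Nat.Prime.coprime_iff_not_dvd hp).mpr this).symm
    · have := ha2.gcd_eq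
      rw [Nat.Coprime, this]; simp
  · intro g hg
    have h1 : orderOf g ∣ p * (P : Subgroup G).index := by rw [← hG]; exact orderOf_dvd_natCard g
    have h2 : Nat.Coprime (orderOf g) p := ((Nat.Prime.coprime_iff_not_dvd hp).mpr hg).symm
    have h3 : orderOf g ∣ (P : Subgroup G).index := h2.dvd_of_dvd_mul_left h1
    have h4 : a ≡ 1 [MOD orderOf g] := ha2.of_dvd h3
    have := pow_eq_pow_iff_modEq.mpr h4
    rw [this, pow_one]
  · have : (powMonoidHom a).comp ψ₀ = (powMonoidHom s).comp ψ₀ := by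
      ext u
      simp only [MonoidHom.comp_apply, powMonoidHom_apply]
      rw [pow_eq_of_modEq' (ψ₀ u) p a s (hψp u) ha1]
    rw [this]; exact hsO

/-- Decomposition of an element of `C_G(P)` into its `p`-part (in `P`) and `p'`-part. -/
theorem exists_decomp [Finite G] (p : ℕ) [Fact p.Prime] (P : Sylow p G) (c : G)
    (hc : c ∈ Subgroup.centralizer ((P : Subgroup G) : Set G)) :
    ∃ v k : G, v ∈ (P : Subgroup G) ∧ k ∈ Subgroup.centralizer ((P : Subgroup G) : Set G) ∧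
      ¬ p ∣ orderOf k ∧ c = v * k := by
  have hp : p.Prime := Fact.out
  obtain ⟨i, m, hpm, hom⟩ := Nat.exists_eq_pow_mul_and_not_dvd (orderOf_pos c).ne' p hp.ne_one
  have hcop : Nat.Coprime (p ^ i) m :=
    Nat.Coprime.pow_left i ((Nat.Prime.coprime_iff_not_dvd hp).mpr hpm)
  obtain ⟨e, he1, he2⟩ := Nat.chineseRemainder hcop 1 0
  obtain ⟨e', he1', he2'⟩ := Nat.chineseRemainder hcop 0 1
  refine ⟨c ^ e, c ^ e', ?_, Subgroup.pow_mem _ hc _, ?_, ?_⟩
  · have hvp : (c ^ e) ^ (p ^ i) = 1 := by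
      rw [← pow_mul]
      apply orderOf_dvd_iff_pow_eq_one.mp
      rw [hom]
      have hme : m ∣ e := (Nat.modEq_zero_iff_dvd).mp he2
      rw [mul_comm e]
      exact Nat.mul_dvd_mul_left _ hme
    have hvC : c ^ e ∈ Subgroup.centralizer ((P : Subgroup G) : Set G) := Subgroup.pow_mem _ hc _
    have hQ : IsPGroup p (Subgroup.zpowers (c ^ e)) := by
      have hdvd : orderOf (c ^ e) ∣ p ^ i := orderOf_dvd_of_pow_eq_one hvp
      obtain ⟨j, _, hj⟩ := (Nat.dvd_prime_pow hp).mp hdvd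
      apply IsPGroup.of_card (n := j)
      rw [Nat.card_zpowers, hj]
    have hle : Subgroup.zpowers (c ^ e) ≤ Subgroup.normalizer ((P : Subgroup G) : Set G) := by
      rw [Subgroup.zpowers_le]
      exact Subgroup.centralizer_le_normalizer _ hvC
    have hsup : IsPGroup p (Subgroup.zpowers (c ^ e) ⊔ (P : Subgroup G) : Subgroup G) :=
      IsPGroup.to_sup_of_normal_right' hQ P.isPGroup' hle
    have heq := P.is_maximal' hsup le_sup_right
    have hmem : c ^ e ∈ Subgroup.zpowers (c ^ e) ⊔ (P : Subgroup G) :=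
      Subgroup.mem_sup_left (Subgroup.mem_zpowers _)
    rw [heq] at hmem; exact hmem
  · have hkm : (c ^ e') ^ m = 1 := by
      rw [← pow_mul]
      apply orderOf_dvd_iff_pow_eq_one.mp
      rw [hom]
      have hpe : p ^ i ∣ e' := (Nat.modEq_zero_iff_dvd).mp he1'
      exact Nat.mul_dvd_mul_right hpe _
    intro hdiv
    exact hpm (hdiv.trans (orderOf_dvd_of_pow_eq_one hkm))
  · rw [← pow_add]
    have h1 : e + e' ≡ 1 [MOD p ^ i] := by simpa using he1.add he1'
    have h2 : e + e' ≡ 1 [MOD m] := by simpa using he2.add he2'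
    have h3 : e + e' ≡ 1 [MOD p ^ i * m] :=
      (Nat.modEq_and_modEq_iff_modEq_mul hcop).mp ⟨h1, h2⟩
    rw [← hom] at h3
    have h4 := pow_eq_pow_iff_modEq.mpr h3
    rw [h4, pow_one]

/-- The main computation: simultaneous diagonalisation on `P × ⟨k⟩`. -/
theorem sum_eq_zero [Finite G] (p : ℕ) [Fact p.Prime] (P : Sylow p G)
    (hP : Nat.card (P : Subgroup G) = p) (ξ : IrrCharacter G)
    (ψ₀ : ↥(P : Subgroup G) →* ℂˣ) (a : ℕ)
    (hsupp : ∀ ψ : ↥(P : Subgroup G) →* ℂˣ,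
      ∑ᶠ u : ↥(P : Subgroup G), (ξ : G → ℂ) (u : G) * conj ((ψ u : ℂˣ) : ℂ) ≠ 0 → Orb p P ψ₀ ψ)
    (hna : ¬ Orb p P ψ₀ ((powMonoidHom a).comp ψ₀))
    (k : G) (hk : k ∈ Subgroup.centralizer ((P : Subgroup G) : Set G)) (hkp : ¬ p ∣ orderOf k)
    [Fintype ↥(P : Subgroup G)] :
    ∑ u : ↥(P : Subgroup G),
      (ξ : G → ℂ) ((u : G) * k) * conj ((ξ : G → ℂ) (((u : G) * k) ^ a)) = 0 := by
  classical
  have hp : p.Prime := Fact.out
  obtain ⟨n, ρ, -, hρ⟩ := ξ.2
  -- a generator of `P`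
  have hnt : Nontrivial ↥(P : Subgroup G) := by
    apply (Finite.one_lt_card_iff_nontrivial).mp
    rw [hP]; exact hp.one_lt
  obtain ⟨u₀', hu₀'⟩ := exists_ne (1 : ↥(P : Subgroup G))
  obtain ⟨u₀, hu₀P⟩ := u₀'
  have hu₀1 : u₀ ≠ 1 := fun h => hu₀' (Subtype.ext h)
  have hu₀p : u₀ ^ p = 1 := by
    have h := pow_card_eq_one' (x := (⟨u₀, hu₀P⟩ : ↥(P : Subgroup G)))
    rw [hP] at h
    have h2 := congrArg Subtype.val h
    simpa using h2
  have hou₀ : orderOf u₀ = p := orderOf_eq_prime hu₀p hu₀1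
  have hcomm : Commute u₀ k := Subgroup.mem_centralizer_iff.mp hk u₀ hu₀P
  obtain ⟨g, hg⟩ : ∃ g : G, g = u₀ * k := ⟨_, rfl⟩
  have hu₁ : g ^ orderOf k = u₀ ^ orderOf k := by
    rw [hg, hcomm.mul_pow, pow_orderOf_eq_one, mul_one]
  have hu₁P : u₀ ^ orderOf k ∈ (P : Subgroup G) := Subgroup.pow_mem _ hu₀P _
  have hu₁1 : u₀ ^ orderOf k ≠ 1 := by
    intro h
    have h2 := orderOf_dvd_of_pow_eq_one h
    rw [hou₀] at h2
    exact hkp h2
  have hu₁o : orderOf (u₀ ^ orderOf k) = p := by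
    apply orderOf_eq_prime _ hu₁1
    rw [← pow_mul, mul_comm, pow_mul, hu₀p, one_pow]
  have hPz : (P : Subgroup G) = Subgroup.zpowers (u₀ ^ orderOf k) := by
    symm
    apply Subgroup.eq_of_le_of_card_ge
    · rw [Subgroup.zpowers_le]; exact hu₁P
    · rw [hP, Nat.card_zpowers, hu₁o]
  have hPg : (P : Subgroup G) ≤ Subgroup.zpowers g := by
    rw [hPz, Subgroup.zpowers_le, ← hu₁]
    exact Subgroup.pow_mem _ (Subgroup.mem_zpowers g) _
  have hkg : k ∈ Subgroup.zpowers g := by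
    have h : k = u₀⁻¹ * g := by rw [hg]; group
    rw [h]
    exact Subgroup.mul_mem _ (Subgroup.inv_mem _ (hPg hu₀P)) (Subgroup.mem_zpowers g)
  -- eigenbasis
  obtain ⟨b, μ, hb, -⟩ := Cfsg.Agent.Lib.Helper3.Spectral.exists_eigenbasis ρ g
  have heig : ∀ x ∈ Subgroup.zpowers g, ∀ t, ∃ c : ℂ, ρ x (b t) = c • b t := by
    intro x hx t
    obtain ⟨j, rfl⟩ := (Submonoid.mem_powers_iff x g).mp ((mem_powers_iff_mem_zpowers).mpr hx)
    refine ⟨μ t ^ j, ?_⟩
    rw [map_pow]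
    exact pow_apply_eigen' (ρ g) (b t) (μ t) (hb t) j
  obtain ⟨ev, hevdef⟩ : ∃ ev : G → Fin (Module.finrank ℂ (Fin n → ℂ)) → ℂ,
      ev = fun x t => b.repr (ρ x (b t)) t := ⟨_, rfl⟩
  have hev : ∀ x ∈ Subgroup.zpowers g, ∀ t, ρ x (b t) = ev x t • b t := by
    intro x hx t
    obtain ⟨c, hc⟩ := heig x hx t
    have h : ev x t = c := by
      rw [hevdef]
      show b.repr (ρ x (b t)) t = c
      rw [hc, map_smul, b.repr_self]
      simp
    rw [h, hc]
  have hev_mul : ∀ x ∈ Subgroup.zpowers g, ∀ y ∈ Subgroup.zpowers g, ∀ t,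
      ev (x * y) t = ev x t * ev y t := by
    intro x hx y hy t
    have h1 : ρ (x * y) (b t) = (ev x t * ev y t) • b t := by
      rw [map_mul, Module.End.mul_apply, hev y hy t, map_smul, hev x hx t, smul_smul, mul_comm]
    have h2 := hev (x * y) (Subgroup.mul_mem _ hx hy) t
    rw [h1] at h2
    exact (smul_left_injective ℂ (b.ne_zero t) h2).symm
  have hev_one : ∀ t, ev 1 t = 1 := by
    intro t
    rw [hevdef]
    show b.repr (ρ 1 (b t)) t = 1
    rw [map_one, Module.End.one_apply, b.repr_self]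
    simp
  have hev_pow : ∀ x ∈ Subgroup.zpowers g, ∀ (j : ℕ) t, ev (x ^ j) t = ev x t ^ j := by
    intro x hx j t
    induction j with
    | zero => rw [pow_zero, pow_zero]; exact hev_one t
    | succ j ih => rw [pow_succ, hev_mul _ (Subgroup.pow_mem _ hx j) _ hx, ih, pow_succ]
  have htr : ∀ x ∈ Subgroup.zpowers g, (ξ : G → ℂ) x = ∑ t, ev x t := by
    intro x hx
    rw [← hρ]
    exact Cfsg.Agent.Lib.Helper3.Spectral.trace_eq_sum_of_eigenbasis b (ρ x) (fun t => ev x t)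
      (hev x hx)
  -- the linear characters of `P` on the eigenvectors
  let ψ' : Fin (Module.finrank ℂ (Fin n → ℂ)) → (↥(P : Subgroup G) →* ℂ) := fun t =>
    { toFun := fun u => ev (u : G) t
      map_one' := hev_one t
      map_mul' := fun u u' => hev_mul _ (hPg u.2) _ (hPg u'.2) t }
  let ψ : Fin (Module.finrank ℂ (Fin n → ℂ)) → (↥(P : Subgroup G) →* ℂˣ) :=
    fun t => (ψ' t).toHomUnits
  have hψ : ∀ t (u : ↥(P : Subgroup G)), ((ψ t u : ℂˣ) : ℂ) = ev (u : G) t := fun t u => rfl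
  have hcardP : Fintype.card ↥(P : Subgroup G) = p := by rw [← Nat.card_eq_fintype_card, hP]
  have horb : ∀ t, Orb p P ψ₀ (ψ t) := by
    intro t
    apply hsupp
    rw [finsum_eq_sum_of_fintype]
    have h1 : ∀ u : ↥(P : Subgroup G), (ξ : G → ℂ) (u : G) * conj ((ψ t u : ℂˣ) : ℂ) =
        ∑ t', ((ψ t' u : ℂˣ) : ℂ) * conj ((ψ t u : ℂˣ) : ℂ) := by
      intro u
      rw [htr _ (hPg u.2), Finset.sum_mul]
      rfl
    rw [Finset.sum_congr rfl (fun u _ => h1 u), Finset.sum_comm]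
    simp_rw [orth_lin, hcardP]
    rw [Finset.sum_ite, Finset.sum_const_zero, add_zero, Finset.sum_const, nsmul_eq_mul]
    apply mul_ne_zero
    · rw [Nat.cast_ne_zero]
      exact (Finset.card_pos.mpr ⟨t, by simp⟩).ne'
    · exact Nat.cast_ne_zero.mpr hp.ne_zero
  have hne : ∀ t t', ψ t ≠ (powMonoidHom a).comp (ψ t') := by
    intro t t' heq
    obtain ⟨m, hm, hmψ⟩ := horb t
    obtain ⟨m', hm', hmψ'⟩ := horb t'
    apply hna
    refine ⟨m * m'⁻¹, Subgroup.mul_mem _ hm (Subgroup.inv_mem _ hm'), ?_⟩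
    intro w w' hw'
    have hu : m'⁻¹ * (w : G) * m' ∈ (P : Subgroup G) := by
      have h := (Subgroup.mem_normalizer_iff.mp (Subgroup.inv_mem _ hm') (w : G)).mp w.2
      simpa using h
    have e1 := hmψ' ⟨_, hu⟩ w (by show (w : G) = m' * (m'⁻¹ * (w : G) * m') * m'⁻¹; group)
    have e2 := hmψ ⟨_, hu⟩ w' (by
      show (w' : G) = m * (m'⁻¹ * (w : G) * m') * m⁻¹
      rw [hw']; group)
    rw [MonoidHom.comp_apply, powMonoidHom_apply, ← e1, ← e2, heq]
    rfl
  -- the final computation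
  have hterm : ∀ u : ↥(P : Subgroup G),
      (ξ : G → ℂ) ((u : G) * k) * conj ((ξ : G → ℂ) (((u : G) * k) ^ a)) =
      ∑ t, ∑ t', (ev k t * conj (ev k t' ^ a)) *
        (((ψ t u : ℂˣ) : ℂ) * conj (((((powMonoidHom a).comp (ψ t')) u : ℂˣ) : ℂ))) := by
    intro u
    have hukz : (u : G) * k ∈ Subgroup.zpowers g := Subgroup.mul_mem _ (hPg u.2) hkg
    rw [htr _ hukz, htr _ (Subgroup.pow_mem _ hukz a), map_sum, Finset.sum_mul]
    refine Finset.sum_congr rfl fun t _ => ?_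
    rw [Finset.mul_sum]
    refine Finset.sum_congr rfl fun t' _ => ?_
    rw [hev_pow _ hukz, hev_mul _ (hPg u.2) _ hkg, hev_mul _ (hPg u.2) _ hkg]
    simp only [MonoidHom.comp_apply, powMonoidHom_apply, Units.val_pow_eq_pow_val, hψ, mul_pow,
      map_mul, map_pow]
    ring
  rw [Finset.sum_congr rfl (fun u _ => hterm u), Finset.sum_comm]
  refine Finset.sum_eq_zero fun t _ => ?_
  rw [Finset.sum_comm]
  refine Finset.sum_eq_zero fun t' _ => ?_
  rw [← Finset.mul_sum, orth_lin, if_neg (hne t t'), mul_zero]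

/-- **S4503/T2.** -/
theorem exists_pconj [Finite G] (p : ℕ) [Fact p.Prime] (P : Sylow p G) (hP : Nat.card P = p)
    (ξ : IrrCharacter G)
    (hf : 2 * (Subgroup.centralizer ((P : Subgroup G) : Set G)).relIndex
      (Subgroup.normalizer ((P : Subgroup G) : Set G)) + 1 < p)
    (ψ₀ : ↥(P : Subgroup G) →* ℂˣ) (hψ₀ : ψ₀ ≠ 1)
    (hsupp : ∀ ψ : ↥(P : Subgroup G) →* ℂˣ,
      ∑ᶠ u : ↥(P : Subgroup G), (ξ : G → ℂ) (u : G) * conj ((ψ u : ℂˣ) : ℂ) ≠ 0 →
      ∃ n : G, n ∈ Subgroup.normalizer ((P : Subgroup G) : Set G) ∧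
        ∀ (u u' : ↥(P : Subgroup G)), (u' : G) = n * (u : G) * n⁻¹ → ψ u = ψ₀ u') :
    ∃ χb : IrrCharacter G, (∀ g : G, ¬ p ∣ orderOf g → (χb : G → ℂ) g = (ξ : G → ℂ) g) ∧
      ∀ c : G, c ∈ Subgroup.centralizer ((P : Subgroup G) : Set G) →
        ∑ᶠ u ∈ ((P : Subgroup G) : Set G),
          (ξ : G → ℂ) (u * c) * conj ((χb : G → ℂ) (u * c)) = 0 := by
  classical
  have hP' : Nat.card (P : Subgroup G) = p := hP
  have := Fintype.ofFinite ↥(P : Subgroup G)
  obtain ⟨a, hcop, hreg, hna⟩ := exists_a p P hP' (by omega) ψ₀ hψ₀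
  refine ⟨⟨fun g => (ξ : G → ℂ) (g ^ a),
    Cfsg.Agent.Lib.Helper76.GaloisConj.isIrrCharacter_pow ξ.2 a hcop⟩, ?_, ?_⟩
  · intro g hg
    show (ξ : G → ℂ) (g ^ a) = (ξ : G → ℂ) g
    rw [hreg g hg]
  · intro c hc
    obtain ⟨v, k, hv, hk, hkp, rfl⟩ := exists_decomp p P c hc
    have hsum := sum_eq_zero p P hP' ξ ψ₀ a hsupp hna k hk hkp
    have hconv := (finsum_set_coe_eq_finsum_mem (f := fun u : G => (ξ : G → ℂ) (u * (v * k)) *
      conj ((ξ : G → ℂ) ((u * (v * k)) ^ a))) ((P : Subgroup G) : Set G)).symm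
    refine hconv.trans ?_
    change ∑ᶠ u : ↥(P : Subgroup G), (ξ : G → ℂ) ((u : G) * (v * k)) *
      conj ((ξ : G → ℂ) (((u : G) * (v * k)) ^ a)) = 0
    rw [finsum_eq_sum_of_fintype, ← hsum]
    have h2 : ∀ u : ↥(P : Subgroup G), (ξ : G → ℂ) ((u : G) * (v * k)) *
        conj ((ξ : G → ℂ) (((u : G) * (v * k)) ^ a)) =
        (fun w : ↥(P : Subgroup G) => (ξ : G → ℂ) ((w : G) * k) *
          conj ((ξ : G → ℂ) (((w : G) * k) ^ a))) (Equiv.mulRight (⟨v, hv⟩ : ↥(P : Subgroup G)) u) := by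
      intro u
      simp [mul_assoc]
    rw [Finset.sum_congr rfl (fun u _ => h2 u)]
    exact Equiv.sum_comp (Equiv.mulRight (⟨v, hv⟩ : ↥(P : Subgroup G)))
      (fun w : ↥(P : Subgroup G) => (ξ : G → ℂ) ((w : G) * k) *
        conj ((ξ : G → ℂ) (((w : G) * k) ^ a)))

end Cfsg.Agent.Lib.Helper81.BrT2
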