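import Mathlib
import Cfsg.Agent.Lib.Helper16.BRStmt2
import Cfsg.Agent.Lib.CT.Orth
import Cfsg.Agent.Lib.CT.Wedderburn
import Cfsg.Agent.Lib.CT.ColumnId
import Cfsg.Agent.Lib.Helper79.BRPY

/-!
helper81: piece S0996/R5 (ResSum) for helper16 — the sum `Σ_χ mult χ i · χ(z)` equals `1`
for `z ∈ P \ {1}` (Fourier inversion on `⟨y⟩` + second orthogonality).
-/

set_option autoImplicit false

namespace Cfsg.Agent.Lib.Helper81.BGR5

open Cfsg Cfsg.Agent.Lib.CT.ThirdMain Cfsg.Agent.Lib.Helper16.BRSpec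
open scoped ComplexConjugate

universe u

/-- Orthogonality of the characters of a cyclic group of order `e`. -/
theorem geom_root (ω : ℂ) (e : ℕ) (hω : IsPrimitiveRoot ω e) (i i' : ℕ)
    (hi : i < e) (hi' : i' < e) :
    ∑ j ∈ Finset.range e, ω ^ ((e - i) * j) * ω ^ (i' * j) = if i' = i then (e : ℂ) else 0 := by
  have h1 : ∀ j, ω ^ ((e - i) * j) * ω ^ (i' * j) = (ω ^ (e - i + i')) ^ j := by
    intro j; rw [← pow_add, ← pow_mul]; congr 1; ring
  simp_rw [h1]
  split_ifs with h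
  · subst h
    have : ω ^ (e - i' + i') = 1 := by
      rw [Nat.sub_add_cancel hi'.le]; exact hω.pow_eq_one
    rw [this]; simp
  · have hne : ω ^ (e - i + i') ≠ 1 := by
      intro h1
      have hdvd := (hω.pow_eq_one_iff_dvd _).mp h1
      obtain ⟨k, hk⟩ := hdvd
      have hk1 : k = 1 := by
        rcases k with _ | _ | k
        · omega
        · rfl
        · exfalso
          have : e * (k + 1 + 1) ≥ 2 * e := by nlinarith
          omega
      subst hk1; omega
    have hgeom := geom_sum_eq hne e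
    rw [hgeom]
    have : (ω ^ (e - i + i')) ^ e = 1 := by
      rw [← pow_mul, mul_comm, pow_mul, hω.pow_eq_one, one_pow]
    rw [this]; simp

theorem main : Cfsg.Agent.Lib.Helper16.BRStmt2.ResSum.{u} := by
  intro G _ _ p _ P hP hC e hN y ω mult hR i hi z hz hz1
  classical
  have := Fintype.ofFinite G
  have := Cfsg.Agent.Lib.CT.Wedderburn.finite_irrCharacter G
  have := Fintype.ofFinite (IrrCharacter G)
  have hp : p.Prime := Fact.out
  have he : 0 < e := lt_of_le_of_lt (Nat.zero_le _) hi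
  rw [finsum_eq_sum_of_fintype]
  have hconjz : ∀ χ : IrrCharacter G, (χ : G → ℂ) z = conj ((χ : G → ℂ) z⁻¹) := by
    intro χ
    rw [Cfsg.Agent.Lib.CT.Wedderburn.char_apply_inv
      (Cfsg.Agent.Lib.CT.Wedderburn.isCharacter_of_irr χ.2)]
    simp
  have hzi : z⁻¹ ∈ (P : Subgroup G) := Subgroup.inv_mem _ hz
  have hzi1 : z⁻¹ ≠ 1 := by simpa using hz1
  obtain ⟨c, hc⟩ : ∃ c : ℕ → IrrCharacter G → ℂ, c = fun j χ =>
      ∑ i' ∈ Finset.range e, (mult χ i' : ℂ) * ω ^ (i' * j) := ⟨_, rfl⟩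
  -- Fourier inversion
  have hF : ∀ χ : IrrCharacter G, (e : ℂ) * (mult χ i : ℂ) =
      ∑ j ∈ Finset.range e, ω ^ ((e - i) * j) * c j χ := by
    intro χ
    rw [hc]
    simp only [Finset.mul_sum]
    rw [Finset.sum_comm]
    have key : ∀ i' ∈ Finset.range e, ∑ j ∈ Finset.range e,
        ω ^ ((e - i) * j) * ((mult χ i' : ℂ) * ω ^ (i' * j)) =
        if i' = i then (e : ℂ) * (mult χ i : ℂ) else 0 := by
      intro i' hi'
      have h2 : ∀ j, ω ^ ((e - i) * j) * ((mult χ i' : ℂ) * ω ^ (i' * j)) =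
          (mult χ i' : ℂ) * (ω ^ ((e - i) * j) * ω ^ (i' * j)) := by intro j; ring
      simp_rw [h2]
      rw [← Finset.mul_sum, geom_root ω e hR.hω i i' hi (Finset.mem_range.mp hi')]
      split_ifs with h
      · subst h; ring
      · ring
    rw [Finset.sum_congr rfl key, Finset.sum_ite_eq' (Finset.range e) i]
    rw [if_pos (Finset.mem_range.mpr hi)]
  have hcj : ∀ j, 0 < j → j < e → ∀ χ : IrrCharacter G, c j χ = (χ : G → ℂ) (y ^ j) := by
    intro j hj0 hje χ
    rw [hR.r3 χ j hj0 hje, hc]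
  have hc0 : ∀ χ : IrrCharacter G, (p : ℂ) * c 0 χ =
      ∑ x : G, if x ∈ ((P : Subgroup G) : Set G) then (χ : G → ℂ) x else 0 := by
    intro χ
    have h := hR.r2 χ
    rw [Cfsg.Agent.Lib.CT.ColumnId.finsum_mem_eq_sum] at h
    rw [← h, hc]
    simp
  -- the terms `j > 0` vanish
  have hS0 : ∀ j, 0 < j → j < e → ∑ χ : IrrCharacter G, c j χ * (χ : G → ℂ) z = 0 := by
    intro j hj0 hje
    have hnc : ¬ IsConj (y ^ j) z⁻¹ := by
      intro hcj'
      have hyjN : y ^ j ∈ Subgroup.normalizer ((P : Subgroup G) : Set G) :=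
        Subgroup.pow_mem _ hR.hyN j
      have hreg := hR.hreg _ hyjN (hR.hyP j hj0 hje)
      apply hreg
      have ho : orderOf (y ^ j) = orderOf z⁻¹ := by
        obtain ⟨g, hg⟩ := isConj_iff.mp hcj'
        rw [← hg]
        exact (orderOf_injective (MulAut.conj g).toMonoidHom (MulAut.conj g).injective
          (y ^ j)).symm
      rw [ho, Cfsg.Agent.Lib.Helper79.BRPY.orderOf_eq p P hP z⁻¹ hzi hzi1]
    have h := Cfsg.Agent.Lib.CT.Orth.second_orthogonality_sum_of_not_isConj (y ^ j) z⁻¹ hnc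
    rw [← h]
    refine Finset.sum_congr rfl fun χ _ => ?_
    rw [hcj j hj0 hje χ, hconjz χ]
  -- the term `j = 0`
  have hS1 : ∑ χ : IrrCharacter G, c 0 χ * (χ : G → ℂ) z = (e : ℂ) := by
    have hpne : (p : ℂ) ≠ 0 := Nat.cast_ne_zero.mpr hp.ne_zero
    apply mul_left_cancel₀ hpne
    rw [Finset.mul_sum]
    have h1 : ∀ χ : IrrCharacter G, (p : ℂ) * (c 0 χ * (χ : G → ℂ) z) =
        ∑ x : G, if x ∈ ((P : Subgroup G) : Set G) then
          (χ : G → ℂ) x * conj ((χ : G → ℂ) z⁻¹) else 0 := by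
      intro χ
      rw [← mul_assoc, hc0 χ, Finset.sum_mul]
      refine Finset.sum_congr rfl fun x _ => ?_
      split_ifs
      · rw [hconjz χ]
      · simp
    rw [Finset.sum_congr rfl (fun χ _ => h1 χ), Finset.sum_comm]
    have h2 : ∀ x : G, ∑ χ : IrrCharacter G,
        (if x ∈ ((P : Subgroup G) : Set G) then
          (χ : G → ℂ) x * conj ((χ : G → ℂ) z⁻¹) else 0) =
        if (x ∈ (((P : Subgroup G) : Set G) \ {1}) ∧ IsConj z⁻¹ x) then (p : ℂ) else 0 := by
      intro x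
      by_cases hx : x ∈ ((P : Subgroup G) : Set G)
      · simp only [hx, if_true]
        by_cases hcx : IsConj x z⁻¹
        · rw [Cfsg.Agent.Lib.CT.Orth.second_orthogonality_sum_of_isConj x z⁻¹ hcx]
          have hx1 : x ≠ 1 := by
            rintro rfl
            obtain ⟨g, hg⟩ := isConj_iff.mp hcx
            apply hzi1
            rw [← hg]; group
          rw [if_pos ⟨⟨hx, hx1⟩, hcx.symm⟩]
          rw [Cfsg.Agent.Lib.Helper79.BRPY.centralizer_eq p P hP x hx hx1, hC, hP]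
        · rw [Cfsg.Agent.Lib.CT.Orth.second_orthogonality_sum_of_not_isConj x z⁻¹ hcx]
          rw [if_neg]
          rintro ⟨_, h⟩; exact hcx h.symm
      · simp only [hx, if_false, Finset.sum_const_zero]
        rw [if_neg]
        rintro ⟨⟨h, _⟩, _⟩; exact hx h
    rw [Finset.sum_congr rfl (fun x _ => h2 x)]
    rw [← Finset.sum_filter, Finset.sum_const, nsmul_eq_mul]
    have hcard := Cfsg.Agent.Lib.Helper79.BRPY.card_class p P hP hC e hN z⁻¹ hzi hzi1
    have hcard' : (Finset.univ.filter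
        (fun x : G => x ∈ (((P : Subgroup G) : Set G) \ {1}) ∧ IsConj z⁻¹ x)).card = e := by
      rw [← hcard, Nat.card_eq_fintype_card, Fintype.card_subtype]
      rfl
    rw [hcard']; ring
  -- combine
  have hene : (e : ℂ) ≠ 0 := Nat.cast_ne_zero.mpr he.ne'
  apply mul_left_cancel₀ hene
  rw [Finset.mul_sum, mul_one]
  have h3 : ∀ χ : IrrCharacter G, (e : ℂ) * ((mult χ i : ℂ) * (χ : G → ℂ) z) =
      ∑ j ∈ Finset.range e, ω ^ ((e - i) * j) * (c j χ * (χ : G → ℂ) z) := by
    intro χ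
    rw [← mul_assoc, hF χ, Finset.sum_mul]
    refine Finset.sum_congr rfl fun j _ => by ring
  rw [Finset.sum_congr rfl (fun χ _ => h3 χ), Finset.sum_comm]
  simp_rw [← Finset.mul_sum]
  rw [Finset.sum_eq_single 0]
  · rw [hS1]; simp
  · intro j hj hj0
    rw [hS0 j (Nat.pos_of_ne_zero hj0) (Finset.mem_range.mp hj), mul_zero]
  · intro h; exact absurd (Finset.mem_range.mpr he) h

end Cfsg.Agent.Lib.Helper81.BGR5
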