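import Mathlib
import Cfsg.Agent.Lib.Helper16.P2pStmt
import Cfsg.Agent.Lib.CT.Orth
import Cfsg.Agent.Lib.CT.Ops
import Cfsg.Agent.Lib.CT.Clifford
import Cfsg.Agent.Lib.CT.Wedderburn

/-!
helper81: piece S4707/CUBE for helper16 — `∑ χ(g)³ = |G|` for the character of degree `p - 1`.
-/

set_option autoImplicit false

namespace Cfsg.Agent.Lib.Helper81.P2CUBE

open Cfsg Subgroup MulAction
open Cfsg.Agent.Lib.Helper17.ExcMain
open Cfsg.Agent.Lib.CT.Wedderburn Cfsg.Agent.Lib.CT.Ops Cfsg.Agent.Lib.CT.Clifford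
  Cfsg.Agent.Lib.CT.Orth
open scoped ComplexConjugate

universe u

theorem main : Cfsg.Agent.Lib.Helper16.P2pStmt.Cube.{u} := by
  intro G _ _ _ P p hp hp5 hP n θ χ i₀ hE hdχ hdθ
  classical
  obtain ⟨hn, hθinj, hT1, -, -, hχt, hθχ, hθt, -, -, hT2, hθ1, hT3⟩ := hE
  have hχc : IsCharacter G (χ : G → ℂ) := isCharacter_of_irr χ.2
  have hχ1 : (χ : G → ℂ) 1 = ((p - 1 : ℕ) : ℂ) := by
    rw [← char_natCast_charDegree hχc, hdχ]
  have hθc : ∀ i, IsCharacter G (θ i : G → ℂ) := fun i => isCharacter_of_irr (θ i).2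
  have hθd : ∀ i, charDegree ((θ i : IrrCharacter G) : G → ℂ) = p - 2 := by
    intro i
    have h1 := hθ1 i i₀
    have h2 := char_natCast_charDegree (hθc i)
    have h3 := char_natCast_charDegree (hθc i₀)
    rw [hdθ] at h3
    have h4 : ((charDegree ((θ i : IrrCharacter G) : G → ℂ) : ℕ) : ℂ) = ((p - 2 : ℕ) : ℂ) := by
      rw [h2, h1, ← h3]
    exact_mod_cast h4
  have htd : charDegree ((trivIrr G : IrrCharacter G) : G → ℂ) = 1 :=
    charDegree_eq_of_apply_one (n := 1) (by rw [trivIrr_apply]; simp)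
  have hcard : (Nat.card G : ℂ) ≠ 0 := Nat.cast_ne_zero.mpr Nat.card_pos.ne'
  -- the column relation without conjugates
  have hT3' : ∀ y : G, y ∈ P → y ≠ 1 → ∀ A : IrrCharacter G → ℂ, (∀ i j, A (θ i) = A (θ j)) →
      ∑ ψ : IrrCharacter G, A ψ * (ψ : G → ℂ) y = A (trivIrr G) - A χ + A (θ i₀) := by
    intro y hy hy1 A hA
    have h := hT3 y⁻¹ (P.inv_mem hy) (by simpa using hy1) A hA
    have e : ∀ ψ : IrrCharacter G, conj ((ψ : G → ℂ) y⁻¹) = (ψ : G → ℂ) y := by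
      intro ψ
      rw [char_apply_inv (isCharacter_of_irr ψ.2)]; simp
    simp_rw [e] at h
    rw [h]; push_cast; ring
  obtain ⟨y, hyP, hy1⟩ : ∃ y : G, y ∈ P ∧ y ≠ 1 := by
    have hnt : Nontrivial ↥P := by
      apply (Finite.one_lt_card_iff_nontrivial).mp; rw [hP]; omega
    obtain ⟨⟨y, hy⟩, hne⟩ := exists_ne (1 : ↥P)
    exact ⟨y, hy, fun h => hne (Subtype.ext h)⟩
  -- χ = -1 on P \ 1 and its conjugates
  have hχP : ∀ y : G, y ∈ P → y ≠ 1 → (χ : G → ℂ) y = -1 := by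
    intro y hy hy1
    have h := hT3' y hy hy1 (fun ψ => if ψ = χ then 1 else 0) (fun i j => by
      rw [if_neg (hθχ i), if_neg (hθχ j)])
    rw [if_neg (Ne.symm hχt), if_pos rfl, if_neg (hθχ i₀)] at h
    have h2 : ∑ ψ : IrrCharacter G, (if ψ = χ then (1 : ℂ) else 0) * (ψ : G → ℂ) y
        = (χ : G → ℂ) y := by
      rw [Finset.sum_eq_single χ]
      · rw [if_pos rfl, one_mul]
      · intro ψ _ hne; rw [if_neg hne, zero_mul]
      · intro h; exact absurd (Finset.mem_univ _) h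
    rw [h2] at h
    rw [h]; ring
  have hconjP : ∀ g : G, g ≠ 1 → (∃ u : G, u⁻¹ * g * u ∈ P) → (χ : G → ℂ) g = -1 := by
    intro g hg hu
    obtain ⟨u, hu⟩ := hu
    have hcf := irr_isClassFunction χ g u⁻¹
    rw [inv_inv] at hcf
    rw [← hcf]
    apply hχP _ hu
    intro h
    apply hg
    have e : g = u * (u⁻¹ * g * u) * u⁻¹ := by group
    rw [e, h]; group
  -- equal multiplicities of the θ i
  have hmeq : ∀ Φ : G → ℂ, (∀ g : G, g ≠ 1 → (∃ u : G, u⁻¹ * g * u ∈ P) → Φ g = 0) →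
      ∀ i j, classInner Φ (θ i : G → ℂ) = classInner Φ (θ j : G → ℂ) := by
    intro Φ hΦ i j
    unfold classInner
    congr 1
    apply Finset.sum_congr rfl
    intro g _
    by_cases hg : g = 1
    · rw [hg, hθ1 i j]
    · by_cases hc : ∃ u : G, u⁻¹ * g * u ∈ P
      · rw [hΦ g hg hc, zero_mul, zero_mul]
      · push Not at hc
        rw [hT2 i j g hc]
  have hgen : ∀ Φ : G → ℂ, IsClassFunction G Φ →
      (∀ g : G, g ≠ 1 → (∃ u : G, u⁻¹ * g * u ∈ P) → Φ g = 0) →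
      classInner Φ (trivIrr G : G → ℂ) - classInner Φ (χ : G → ℂ) +
        classInner Φ (θ i₀ : G → ℂ) = 0 := by
    intro Φ hcf hΦ
    have h := hT3' y hyP hy1 (fun ψ => classInner Φ (ψ : G → ℂ)) (hmeq Φ hΦ)
    rw [← classFunction_expand_sum Φ hcf y] at h
    rw [← h]
    exact hΦ y hy1 ⟨1, by simpa using hyP⟩
  -- degrees exclude: an irreducible character of degree p - 1 is χ, of degree p - 2 is a θ
  have hp1 : ((p - 1 : ℕ) : ℤ) = (p : ℤ) - 1 := by
    have : 1 ≤ p := by omega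
    push_cast [Nat.cast_sub this]; ring
  have hp2 : ((p - 2 : ℕ) : ℤ) = (p : ℤ) - 2 := by
    have : 2 ≤ p := by omega
    push_cast [Nat.cast_sub this]; ring
  have hnodiv : ∀ k : ℤ, 0 < k → k < p → ∀ a : ℤ, k ≠ (p : ℤ) * a := by
    intro k hk0 hkp a h
    have hd : (p : ℤ) ∣ k := ⟨a, h⟩
    have := Int.le_of_dvd hk0 hd
    omega
  have hdeg1 : ∀ ψ : IrrCharacter G, charDegree (ψ : G → ℂ) = p - 1 → ψ = χ := by
    intro ψ hd
    by_contra hne
    by_cases ht : ψ = trivIrr G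
    · rw [ht, htd] at hd; omega
    · by_cases hth : ∃ i, θ i = ψ
      · obtain ⟨i, hi⟩ := hth
        have h := hθd i
        rw [hi, hd] at h
        omega
      · push Not at hth
        obtain ⟨a, ha⟩ := hT1 ψ ht hne hth
        rw [hd, hp1] at ha
        exact hnodiv ((p : ℤ) - 1) (by omega) (by omega) a ha
  have hdeg2 : ∀ ψ : IrrCharacter G, charDegree (ψ : G → ℂ) = p - 2 → ∃ j, θ j = ψ := by
    intro ψ hd
    by_contra hth
    push Not at hth
    have ht : ψ ≠ trivIrr G := by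
      intro ht; rw [ht, htd] at hd; omega
    have hne : ψ ≠ χ := by
      intro hne; rw [hne, hdχ] at hd; omega
    obtain ⟨a, ha⟩ := hT1 ψ ht hne hth
    rw [hd, hp2] at ha
    exact hnodiv ((p : ℤ) - 2) (by omega) (by omega) a ha
  -- χ is real
  have hreal : ∀ g, conj ((χ : G → ℂ) g) = (χ : G → ℂ) g := by
    obtain ⟨χ', hχ'⟩ : ∃ χ' : IrrCharacter G, (χ' : G → ℂ) = fun g => (χ : G → ℂ) g⁻¹ :=
      ⟨⟨fun g => (χ : G → ℂ) g⁻¹, isIrrCharacter_inv_arg χ.2⟩, rfl⟩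
    have hd' : charDegree (χ' : G → ℂ) = p - 1 := by
      apply charDegree_eq_of_apply_one
      rw [hχ']; simp only [inv_one]; exact hχ1
    have hχ'eq : χ' = χ := hdeg1 χ' hd'
    intro g
    rw [← char_apply_inv hχc]
    have h := congrFun hχ' g
    rw [hχ'eq] at h
    exact h.symm
  -- s := ⟨χ², χ⟩
  have hχ2c : IsCharacter G ((χ : G → ℂ) * (χ : G → ℂ)) := isCharacter_mul hχc hχc
  obtain ⟨s, hs⟩ := classInner_char_nat hχ2c hχc
  have hcube : ∑ g : G, (χ : G → ℂ) g ^ 3 = (Nat.card G : ℂ) * s := by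
    rw [← hs]
    unfold classInner
    rw [← mul_assoc, mul_inv_cancel₀ hcard, one_mul]
    apply Finset.sum_congr rfl
    intro g _
    rw [hreal g, Pi.mul_apply]; ring
  -- orthogonality facts
  have hχχ : classInner (χ : G → ℂ) (χ : G → ℂ) = 1 := by
    rw [irr_orthonormal χ χ, if_pos rfl]
  have hχtriv : classInner (χ : G → ℂ) (trivIrr G : G → ℂ) = 0 := by
    rw [irr_orthonormal χ (trivIrr G), if_neg hχt]
  have hχθ : ∀ i, classInner (χ : G → ℂ) (θ i : G → ℂ) = 0 := by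
    intro i
    rw [irr_orthonormal χ (θ i), if_neg (Ne.symm (hθχ i))]
  have hθχ' : ∀ i, classInner (θ i : G → ℂ) (χ : G → ℂ) = 0 := by
    intro i
    rw [irr_orthonormal (θ i) χ, if_neg (hθχ i)]
  have hχ2triv : classInner ((χ : G → ℂ) * (χ : G → ℂ)) (trivIrr G : G → ℂ) = 1 := by
    rw [← hχχ]
    unfold classInner
    congr 1
    apply Finset.sum_congr rfl
    intro g _
    rw [trivIrr_apply, hreal g, Pi.mul_apply]; simp
  -- (a) Φ1 = χ² + χ
  have hcf2 : IsClassFunction G ((χ : G → ℂ) * (χ : G → ℂ)) := char_isClassFunction hχ2c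
  have hΦ1cf : IsClassFunction G ((χ : G → ℂ) * (χ : G → ℂ) + (χ : G → ℂ)) :=
    char_isClassFunction (isCharacter_add hχ2c hχc)
  have hΦ1v : ∀ g : G, g ≠ 1 → (∃ u : G, u⁻¹ * g * u ∈ P) →
      ((χ : G → ℂ) * (χ : G → ℂ) + (χ : G → ℂ)) g = 0 := by
    intro g hg hu
    rw [Pi.add_apply, Pi.mul_apply, hconjP g hg hu]; ring
  have ha0 : classInner ((χ : G → ℂ) * (χ : G → ℂ)) (θ i₀ : G → ℂ) = s := by
    have h := hgen _ hΦ1cf hΦ1v
    rw [classInner_add_left, classInner_add_left, classInner_add_left, hχ2triv, hχtriv, hs, hχχ,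
      hχθ i₀] at h
    linear_combination h
  have ha : ∀ i, classInner ((χ : G → ℂ) * (χ : G → ℂ)) (θ i : G → ℂ) = s := by
    intro i
    have h := hmeq _ hΦ1v i i₀
    rw [classInner_add_left, classInner_add_left, hχθ i, hχθ i₀, ha0] at h
    simpa using h
  -- s ≤ 1 by degrees
  choose c hc using fun ψ : IrrCharacter G =>
    classInner_char_nat hχ2c (isCharacter_of_irr ψ.2)
  have hexp := classFunction_expand_sum _ hcf2 1
  have hsum : (p - 1) ^ 2 = ∑ ψ : IrrCharacter G, c ψ * charDegree (ψ : G → ℂ) := by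
    have h1 : (((p - 1) ^ 2 : ℕ) : ℂ) =
        ((∑ ψ : IrrCharacter G, c ψ * charDegree (ψ : G → ℂ) : ℕ) : ℂ) := by
      push_cast
      rw [Pi.mul_apply, hχ1] at hexp
      rw [← pow_two] at hexp
      rw [hexp]
      apply Finset.sum_congr rfl
      intro ψ _
      rw [hc ψ, char_natCast_charDegree (isCharacter_of_irr ψ.2)]
    exact_mod_cast h1
  have hct : c (trivIrr G) = 1 := by
    have h := hc (trivIrr G); rw [hχ2triv] at h; exact_mod_cast h.symm
  have hcχ : c χ = s := by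
    have h := hc χ; rw [hs] at h; exact_mod_cast h.symm
  have hcθ : ∀ i, c (θ i) = s := by
    intro i
    have h := hc (θ i); rw [ha i] at h; exact_mod_cast h.symm
  have hlow : 1 + s * (p - 1) + n * (s * (p - 2)) ≤ (p - 1) ^ 2 := by
    rw [hsum, sum_split θ hθinj (fun ψ => c ψ * charDegree (ψ : G → ℂ))]
    have h1 : ∑ i, c (θ i) * charDegree ((θ i : IrrCharacter G) : G → ℂ) = n * (s * (p - 2)) := by
      rw [Finset.sum_congr rfl (fun i _ => by rw [hcθ i, hθd i])]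
      simp
    rw [h1]
    have h2 : 1 + s * (p - 1) ≤ ∑ ψ : IrrCharacter G,
        (if ∃ i, θ i = ψ then 0 else c ψ * charDegree (ψ : G → ℂ)) := by
      have hsub : ({trivIrr G, χ} : Finset (IrrCharacter G)) ⊆ Finset.univ :=
        Finset.subset_univ _
      have h3 := Finset.sum_le_sum_of_subset (f := fun ψ : IrrCharacter G =>
        (if ∃ i, θ i = ψ then 0 else c ψ * charDegree (ψ : G → ℂ))) hsub
      rw [Finset.sum_pair (Ne.symm hχt)] at h3
      rw [if_neg (by push Not; exact hθt), if_neg (by push Not; exact hθχ), hct, htd, hcχ,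
        hdχ] at h3
      simpa using h3
    omega
  have hs1 : s ≤ 1 := by
    by_contra hcon
    have hs2 : 2 ≤ s := by omega
    have hpn : p - 1 = 2 * n := by omega
    have hpn2 : p - 2 = 2 * n - 1 := by omega
    rw [hpn, hpn2] at hlow
    have hn1 : 1 ≤ n := by omega
    obtain ⟨k, rfl⟩ : ∃ k, n = k + 1 := ⟨n - 1, by omega⟩
    have e : 2 * (k + 1) - 1 = 2 * k + 1 := by omega
    rw [e] at hlow
    nlinarith [Nat.mul_le_mul_right ((k + 1) * (2 * k + 1)) hs2,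
      Nat.mul_le_mul_right (2 * (k + 1)) hs2]
  -- (b) Φ2 = θ χ + θ
  have hθχc : IsCharacter G ((θ i₀ : G → ℂ) * (χ : G → ℂ)) := isCharacter_mul (hθc i₀) hχc
  have hΦ2cf : IsClassFunction G ((θ i₀ : G → ℂ) * (χ : G → ℂ) + (θ i₀ : G → ℂ)) :=
    char_isClassFunction (isCharacter_add hθχc (hθc i₀))
  have hΦ2v : ∀ g : G, g ≠ 1 → (∃ u : G, u⁻¹ * g * u ∈ P) →
      ((θ i₀ : G → ℂ) * (χ : G → ℂ) + (θ i₀ : G → ℂ)) g = 0 := by
    intro g hg hu
    rw [Pi.add_apply, Pi.mul_apply, hconjP g hg hu]; ring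
  obtain ⟨t₁, ht₁⟩ := classInner_char_nat hθχc hχc
  obtain ⟨t₂, ht₂⟩ := classInner_char_nat hθχc (hθc i₀)
  have hθχtriv : classInner ((θ i₀ : G → ℂ) * (χ : G → ℂ)) (trivIrr G : G → ℂ) = 0 := by
    rw [← hθχ' i₀]
    unfold classInner
    congr 1
    apply Finset.sum_congr rfl
    intro g _
    rw [trivIrr_apply, hreal g, Pi.mul_apply]; simp
  have hθtriv : classInner (θ i₀ : G → ℂ) (trivIrr G : G → ℂ) = 0 := by
    rw [irr_orthonormal (θ i₀) (trivIrr G), if_neg (hθt i₀)]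
  have hθθ : classInner (θ i₀ : G → ℂ) (θ i₀ : G → ℂ) = 1 := by
    rw [irr_orthonormal (θ i₀) (θ i₀), if_pos rfl]
  have hb : t₁ = t₂ + 1 := by
    have h := hgen _ hΦ2cf hΦ2v
    rw [classInner_add_left, classInner_add_left, classInner_add_left, hθχtriv, hθtriv, ht₁,
      hθχ' i₀, ht₂, hθθ] at h
    have h2 : ((t₁ : ℕ) : ℂ) = ((t₂ + 1 : ℕ) : ℂ) := by
      push_cast; linear_combination -h
    exact_mod_cast h2
  -- t₁ = ⟨χ², conj θ⟩ = s
  have ht₁s : t₁ = s := by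
    obtain ⟨θ', hθ'⟩ : ∃ θ' : IrrCharacter G,
        (θ' : G → ℂ) = fun g => (θ i₀ : G → ℂ) g⁻¹ :=
      ⟨⟨fun g => (θ i₀ : G → ℂ) g⁻¹, isIrrCharacter_inv_arg (θ i₀).2⟩, rfl⟩
    have hd' : charDegree (θ' : G → ℂ) = p - 2 := by
      apply charDegree_eq_of_apply_one
      rw [hθ']; simp only [inv_one]
      rw [← char_natCast_charDegree (hθc i₀), hdθ]
    obtain ⟨j, hj⟩ := hdeg2 θ' hd'
    have h1 : classInner ((θ i₀ : G → ℂ) * (χ : G → ℂ)) (χ : G → ℂ) =
        classInner ((χ : G → ℂ) * (χ : G → ℂ)) (θ' : G → ℂ) := by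
      unfold classInner
      congr 1
      apply Finset.sum_congr rfl
      intro g _
      rw [hθ', hreal g, Pi.mul_apply, Pi.mul_apply]
      have e : conj ((fun g => (θ i₀ : G → ℂ) g⁻¹) g) = (θ i₀ : G → ℂ) g := by
        show conj ((θ i₀ : G → ℂ) g⁻¹) = _
        rw [char_apply_inv (hθc i₀)]; simp
      rw [e]; ring
    rw [ht₁, ← hj, ha j] at h1
    exact_mod_cast h1
  have hs_eq : s = 1 := by omega
  rw [hcube, hs_eq]; simp

end Cfsg.Agent.Lib.Helper81.P2CUBE
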