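import Mathlib
import Cfsg.Prelude.Def_Blocks
import Cfsg.Agent.Lib.CT.Wedderburn
import Cfsg.Agent.Lib.CT.Orth
import Cfsg.Agent.Lib.CT.Ops
import Cfsg.Agent.Lib.CT.Clifford
import Cfsg.Agent.Lib.CT.Kernel
import Cfsg.Agent.Lib.CT.ThirdMain
import Cfsg.Agent.Lib.Helper69.BrK1
import Cfsg.Agent.Lib.Helper69.BrK2
import Cfsg.Agent.Lib.Helper82.BrK347
import Cfsg.Agent.Lib.Helper35.BrK5
import Cfsg.Agent.Lib.Helper1.BrK6
import Cfsg.Agent.Lib.Helper23.BrK7a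
import Cfsg.Agent.Lib.Helper23.BrK7b

/-!
helper81: piece S4503/A1 for helper74 — the double count (`core_count`).
-/

set_option autoImplicit false

namespace Cfsg.Agent.Lib.Helper81.BrA1

open Cfsg
open scoped ComplexConjugate

universe u

/-- The purely numerical part of the double count. -/
theorem core_abs {ι κ : Type*} [DecidableEq ι] [Fintype κ]
    (p f : ℕ) (hp : p.Prime) (hfp : 2 * f + 1 < p)
    (X Y : Finset ι) (ε : ι → ℤ) (ε' : ℤ)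
    (hX : X.card = f) (hXY : X.card * Y.card = p - 1)
    (hε : ∀ ξ ∈ X, ε ξ = 1 ∨ ε ξ = -1) (hε' : ε' = 1 ∨ ε' = -1)
    (a' a d mK : ι → ℕ) (m : ι → κ → ℕ) (one : κ) (PT : κ → Prop) [DecidablePred PT]
    (dg : κ → ℕ) (tr : ι)
    (hPT1 : PT one) (hdg1 : dg one = 1)
    (F1 : ∀ ξ ∈ X, (a' ξ : ℤ) - a ξ = ε ξ)
    (F3 : ∀ ξ φ, PT φ → a ξ ≠ 0 → m ξ φ = 0)
    (F4 : ∀ ξ ∈ X, ε ξ = 1 → d ξ + p = p * (∑ φ ∈ Finset.univ.filter PT, m ξ φ * dg φ) + 1)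
    (F6 : (∑ η ∈ Y, (a' η : ℤ)) - ∑ η ∈ Y, (a η : ℤ) = -ε')
    (F6' : ∀ η ∈ Y, ∀ η' ∈ Y, ∀ φ, PT φ → m η φ = m η' φ)
    (F7 : ∀ φ, PT φ → φ ≠ one →
      (Y.card : ℤ) * ∑ ξ ∈ X, ε ξ * (m ξ φ : ℤ) = ε' * ∑ η ∈ Y, (m η φ : ℤ))
    (F8 : ∀ ξ ∈ X, ε ξ = 1 → d ξ = 1 → ξ = tr)
    (F9 : ∀ S ⊆ X, ∑ ξ ∈ S, a' ξ * m ξ one ≤ f)
    (F10a : ∀ ξ ∈ X, ε ξ = -1 → m ξ one = 0 → mK ξ + 1 = p)
    (F10b : ∀ S ⊆ X, ∑ ξ ∈ S, a ξ * mK ξ ≤ f ^ 2) : f = 1 := by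
  classical
  have hp2 : 2 ≤ p := hp.two_le
  obtain ⟨Xp, hXp⟩ : ∃ Xp, Xp = X.filter (fun ξ => ε ξ = 1) := ⟨_, rfl⟩
  obtain ⟨Xm, hXm⟩ : ∃ Xm, Xm = X.filter (fun ξ => ε ξ = -1) := ⟨_, rfl⟩
  have hmemp : ∀ ξ, ξ ∈ Xp ↔ ξ ∈ X ∧ ε ξ = 1 := by intro ξ; rw [hXp, Finset.mem_filter]
  have hmemm : ∀ ξ, ξ ∈ Xm ↔ ξ ∈ X ∧ ε ξ = -1 := by intro ξ; rw [hXm, Finset.mem_filter]
  have hXpX : Xp ⊆ X := fun ξ h => ((hmemp ξ).mp h).1
  have hXmX : Xm ⊆ X := fun ξ h => ((hmemm ξ).mp h).1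
  have hdisj : Disjoint Xp Xm := by
    rw [Finset.disjoint_left]
    intro ξ h1 h2
    have e1 := ((hmemp ξ).mp h1).2
    have e2 := ((hmemm ξ).mp h2).2
    rw [e1] at e2
    exact absurd e2 (by norm_num)
  have hunion : Xp ∪ Xm = X := by
    ext ξ
    rw [Finset.mem_union, hmemp, hmemm]
    constructor
    · rintro (h | h) <;> exact h.1
    · intro h
      rcases hε ξ h with h1 | h1
      · exact Or.inl ⟨h, h1⟩
      · exact Or.inr ⟨h, h1⟩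
  have hcard : Xp.card + Xm.card = f := by
    rw [← hX, ← hunion, Finset.card_union_of_disjoint hdisj]
  -- S4
  have S4 : ∀ ξ ∈ Xp, a ξ = 0 ∧ a' ξ = 1 := by
    intro ξ hξ
    obtain ⟨hξX, hξe⟩ := (hmemp ξ).mp hξ
    have h4 := F4 ξ hξX hξe
    have hex : ∃ φ, PT φ ∧ m ξ φ ≠ 0 := by
      by_contra hno
      push Not at hno
      have h0 : ∑ φ ∈ Finset.univ.filter PT, m ξ φ * dg φ = 0 := by
        apply Finset.sum_eq_zero
        intro φ hφ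
        rw [Finset.mem_filter] at hφ
        rw [hno φ hφ.2, zero_mul]
      rw [h0] at h4
      omega
    obtain ⟨φ, hφ, hmφ⟩ := hex
    have ha : a ξ = 0 := by
      by_contra hne
      exact hmφ (F3 ξ φ hφ hne)
    have h1 := F1 ξ hξX
    rw [ha, hξe] at h1
    refine ⟨ha, ?_⟩
    have h2 : (a' ξ : ℤ) = 1 := by simpa using h1
    exact_mod_cast h2
  -- S5
  have S5a : ∀ ξ ∈ Xm, 1 ≤ a ξ := by
    intro ξ hξ
    obtain ⟨hξX, hξe⟩ := (hmemm ξ).mp hξ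
    have h1 := F1 ξ hξX
    rw [hξe] at h1
    omega
  have S5 : ∀ ξ ∈ Xm, ∀ φ, PT φ → m ξ φ = 0 := by
    intro ξ hξ φ hφ
    exact F3 ξ φ hφ (by have := S5a ξ hξ; omega)
  have hf1 : 1 ≤ f := by
    by_contra h
    have h0 : f = 0 := by omega
    rw [hX, h0, zero_mul] at hXY
    omega
  have hY1 : 1 ≤ Y.card := by
    by_contra h
    have h0 : Y.card = 0 := by omega
    rw [h0, mul_zero] at hXY
    omega
  -- S6
  have S6 : ε' = 1 → ∀ η ∈ Y, ∀ φ, PT φ → m η φ = 0 := by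
    intro he η hη φ hφ
    have hex : ∃ η₀ ∈ Y, a η₀ ≠ 0 := by
      by_contra hno
      push Not at hno
      have h0 : ∑ η ∈ Y, (a η : ℤ) = 0 :=
        Finset.sum_eq_zero (fun η hη => by rw [hno η hη]; rfl)
      rw [h0, he] at F6
      have hnn : 0 ≤ ∑ η ∈ Y, (a' η : ℤ) := Finset.sum_nonneg (fun η _ => Int.natCast_nonneg _)
      omega
    obtain ⟨η₀, hη₀, ha₀⟩ := hex
    rw [F6' η hη η₀ hη₀ φ hφ]
    exact F3 η₀ φ hφ ha₀
  -- S7
  have S7 : ∀ φ, PT φ → φ ≠ one → ∀ ξ ∈ Xp, m ξ φ = 0 := by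
    intro φ hφ hφ1
    have h7 := F7 φ hφ hφ1
    have hsplit : ∑ ξ ∈ X, ε ξ * (m ξ φ : ℤ) = ∑ ξ ∈ Xp, (m ξ φ : ℤ) := by
      rw [hXp, Finset.sum_filter]
      apply Finset.sum_congr rfl
      intro ξ hξ
      rcases hε ξ hξ with h | h
      · rw [if_pos h, h, one_mul]
      · rw [if_neg (by rw [h]; norm_num), S5 ξ ((hmemm ξ).mpr ⟨hξ, h⟩) φ hφ]
        simp
    rw [hsplit] at h7
    have hnn : 0 ≤ ∑ ξ ∈ Xp, (m ξ φ : ℤ) := Finset.sum_nonneg (fun _ _ => Int.natCast_nonneg _)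
    have hzero : ∑ ξ ∈ Xp, (m ξ φ : ℤ) = 0 := by
      rcases hε' with he | he
      · have h0 : ∑ η ∈ Y, (m η φ : ℤ) = 0 :=
          Finset.sum_eq_zero (fun η hη => by rw [S6 he η hη φ hφ]; rfl)
        rw [h0, mul_zero] at h7
        have hY : (Y.card : ℤ) ≠ 0 := by exact_mod_cast (by omega : Y.card ≠ 0)
        exact (mul_eq_zero.mp h7).resolve_left hY
      · rw [he] at h7
        have hnnY : 0 ≤ ∑ η ∈ Y, (m η φ : ℤ) :=
          Finset.sum_nonneg (fun _ _ => Int.natCast_nonneg _)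
        have hY : (0 : ℤ) < Y.card := by exact_mod_cast hY1
        nlinarith
    intro ξ hξ
    have h := (Finset.sum_eq_zero_iff_of_nonneg (fun _ _ => Int.natCast_nonneg _)).mp hzero ξ hξ
    exact_mod_cast h
  -- S8
  have S8 : ∀ ξ ∈ Xp, d ξ + p = p * m ξ one + 1 := by
    intro ξ hξ
    obtain ⟨hξX, hξe⟩ := (hmemp ξ).mp hξ
    have h4 := F4 ξ hξX hξe
    have h0 : ∑ φ ∈ Finset.univ.filter PT, m ξ φ * dg φ = m ξ one := by
      rw [Finset.sum_eq_single one]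
      · rw [hdg1, mul_one]
      · intro φ hφ hne
        rw [Finset.mem_filter] at hφ
        rw [S7 φ hφ.2 hne ξ hξ, zero_mul]
      · intro h
        exact absurd (Finset.mem_filter.mpr ⟨Finset.mem_univ _, hPT1⟩) h
    rw [h0] at h4
    exact h4
  have S8b : ∀ ξ ∈ Xp, 2 ≤ m ξ one + (if ξ = tr then 1 else 0) := by
    intro ξ hξ
    obtain ⟨hξX, hξe⟩ := (hmemp ξ).mp hξ
    have h8 := S8 ξ hξ
    have hm1 : 1 ≤ m ξ one := by
      by_contra h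
      have h0 : m ξ one = 0 := by omega
      rw [h0] at h8; omega
    by_cases htr : ξ = tr
    · rw [if_pos htr]; omega
    · rw [if_neg htr]
      by_contra h
      have hm : m ξ one = 1 := by omega
      rw [hm] at h8
      have hd1 : d ξ = 1 := by omega
      exact htr (F8 ξ hξX hξe hd1)
  have S8c : 2 * Xp.card ≤ ∑ ξ ∈ Xp, m ξ one + 1 := by
    have h1 : ∑ ξ ∈ Xp, 2 ≤ ∑ ξ ∈ Xp, (m ξ one + (if ξ = tr then 1 else 0)) :=
      Finset.sum_le_sum S8b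
    rw [Finset.sum_const, smul_eq_mul, Finset.sum_add_distrib] at h1
    have h2 : ∑ ξ ∈ Xp, (if ξ = tr then 1 else 0) ≤ 1 := by
      rw [Finset.sum_ite_eq']
      split_ifs <;> omega
    omega
  -- S9
  have S9 : ∑ ξ ∈ Xp, m ξ one ≤ f := by
    have h9 := F9 Xp hXpX
    have h0 : ∑ ξ ∈ Xp, a' ξ * m ξ one = ∑ ξ ∈ Xp, m ξ one := by
      apply Finset.sum_congr rfl
      intro ξ hξ
      rw [(S4 ξ hξ).2, one_mul]
    rw [h0] at h9; exact h9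
  -- S10
  have S10 : (p - 1) * Xm.card ≤ f ^ 2 := by
    have h10 := F10b Xm hXmX
    have h0 : ∑ ξ ∈ Xm, (p - 1) ≤ ∑ ξ ∈ Xm, a ξ * mK ξ := by
      apply Finset.sum_le_sum
      intro ξ hξ
      obtain ⟨hξX, hξe⟩ := (hmemm ξ).mp hξ
      have hK := F10a ξ hξX hξe (S5 ξ hξ one hPT1)
      have ha := S5a ξ hξ
      have hK' : mK ξ = p - 1 := by omega
      rw [hK']
      exact Nat.le_mul_of_pos_left _ ha
    rw [Finset.sum_const, smul_eq_mul, mul_comm] at h0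
    exact le_trans h0 h10
  -- S11
  have hA : 2 * Xp.card ≤ f + 1 := by omega
  obtain ⟨A, hAdef⟩ : ∃ A, A = Xp.card := ⟨_, rfl⟩
  obtain ⟨B, hBdef⟩ : ∃ B, B = Xm.card := ⟨_, rfl⟩
  obtain ⟨t, htdef⟩ : ∃ t, t = Y.card := ⟨_, rfl⟩
  rw [← hAdef, ← hBdef] at hcard
  rw [← hAdef] at hA
  rw [← hBdef] at S10
  rw [hX, ← htdef] at hXY
  have ht3 : 3 ≤ t := by
    by_contra h
    have h2 : t ≤ 2 := by omega
    have h3 : f * t ≤ f * 2 := Nat.mul_le_mul_left f h2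
    omega
  have htB : t * B ≤ f := by
    have h1 : f * (t * B) ≤ f * f := by
      calc f * (t * B) = (p - 1) * B := by rw [← hXY]; ring
        _ ≤ f ^ 2 := S10
        _ = f * f := by ring
    exact Nat.le_of_mul_le_mul_left h1 (by omega)
  have h3B : 3 * B ≤ f := le_trans (Nat.mul_le_mul_right B ht3) htB
  have hf3 : f ≤ 3 := by omega
  interval_cases f
  · rfl
  · omega
  · have hB : B = 1 := by omega
    have ht : t = 3 := by rw [hB] at htB; omega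
    rw [ht] at hXY
    have hp10 : p = 10 := by omega
    rw [hp10] at hp
    norm_num at hp

open Cfsg.Agent.Lib.CT.Wedderburn Cfsg.Agent.Lib.CT.Ops Cfsg.Agent.Lib.CT.Clifford
  Cfsg.Agent.Lib.CT.ThirdMain

theorem isCharacter_mul_conj {H : Type u} [Group H] [Finite H] {χ ψ : H → ℂ}
    (hχ : IsCharacter H χ) (hψ : IsCharacter H ψ) :
    IsCharacter H (fun g => χ g * conj (ψ g)) := by
  have h := isCharacter_mul hχ (isCharacter_inv_arg hψ)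
  have e : (fun g => χ g * conj (ψ g)) = χ * (fun g => ψ g⁻¹) := by
    funext g
    rw [Pi.mul_apply, char_apply_inv hψ]
  rw [e]; exact h

theorem classInner_sum_right' {H : Type u} [Group H] [Fintype H] {ι : Type*} (s : Finset ι)
    (Φ : H → ℂ) (F : ι → H → ℂ) :
    classInner Φ (fun g => ∑ i ∈ s, F i g) = ∑ i ∈ s, classInner Φ (F i) := by
  unfold classInner
  rw [Finset.mul_sum]
  simp_rw [map_sum, Finset.mul_sum]
  rw [Finset.sum_comm]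

theorem fsum_filter {α : Type*} [Fintype α] (s : Set α) [DecidablePred (· ∈ s)]
    {A : Type*} [AddCommMonoid A] (f : α → A) :
    ∑ᶠ a ∈ s, f a = ∑ a ∈ Finset.univ.filter (· ∈ s), f a := by
  rw [finsum_mem_def, finsum_eq_sum_of_fintype, Finset.sum_filter]
  refine Finset.sum_congr rfl fun a _ => ?_
  by_cases h : a ∈ s <;> simp [h]

theorem card_filter_mem' {α : Type*} [Fintype α] (s : Set α) [DecidablePred (· ∈ s)] :
    (Finset.univ.filter (· ∈ s)).card = Nat.card s := by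
  rw [Nat.card_coe_set_eq, ← Set.ncard_coe_finset]
  congr 1
  ext a
  simp

section

variable {G : Type u} [Group G] [Finite G] (p : ℕ) [Fact p.Prime] (P : Sylow p G)

local notation "CP" => Subgroup.centralizer ((P : Subgroup G) : Set G)

theorem finsum_P_eq (hP : Nat.card (P : Subgroup G) = p) (F : G → ℂ)
    (hF : ∀ u ∈ (P : Subgroup G), u ≠ 1 → F u = 1) :
    ∑ᶠ u ∈ ((P : Subgroup G) : Set G), F u + 1 = F 1 + p := by
  classical
  have := Fintype.ofFinite ↥(P : Subgroup G)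
  have hconv := (finsum_set_coe_eq_finsum_mem (f := F) ((P : Subgroup G) : Set G)).symm
  rw [hconv]
  change ∑ᶠ u : ↥(P : Subgroup G), F (u : G) + 1 = F 1 + p
  rw [finsum_eq_sum_of_fintype]
  have h1 : ∀ u : ↥(P : Subgroup G), F (u : G) = (if u = 1 then F 1 - 1 else 0) + 1 := by
    intro u
    by_cases hu : u = 1
    · rw [if_pos hu, hu]; simp
    · rw [if_neg hu, zero_add]
      exact hF u u.2 (fun h => hu (Subtype.ext h))
  have hc : Fintype.card ↥(P : Subgroup G) = p := by rw [← Nat.card_eq_fintype_card, hP]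
  rw [Finset.sum_congr rfl (fun u _ => h1 u), Finset.sum_add_distrib, Finset.sum_ite_eq',
    Finset.sum_const, Finset.card_univ, hc]
  simp
  ring

theorem dvd_orderOf_of_mem (hP : Nat.card (P : Subgroup G) = p) (u : G)
    (hu : u ∈ (P : Subgroup G)) (hu1 : u ≠ 1) : p ∣ orderOf u := by
  have hp : p.Prime := Fact.out
  have hdvd : orderOf u ∣ p := by
    have h := Subgroup.orderOf_dvd_natCard (P : Subgroup G) hu
    rwa [hP] at h
  rcases (Nat.dvd_prime hp).mp hdvd with h | h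
  · exact absurd (orderOf_eq_one_iff.mp h) hu1
  · rw [h]

theorem finsum_C_eq [Fintype ↥CP] (F : G → ℂ) :
    ∑ᶠ c ∈ ((CP : Subgroup G) : Set G), F c = ∑ c : ↥CP, F (c : G) := by
  have hconv := (finsum_set_coe_eq_finsum_mem (f := F) ((CP : Subgroup G) : Set G)).symm
  rw [hconv]
  change ∑ᶠ c : ↥CP, F (c : G) = _
  rw [finsum_eq_sum_of_fintype]

theorem core_count_aux (hP : Nat.card P = p)
    (hgen : Subgroup.normalClosure ((P : Subgroup G) : Set G) = ⊤)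
    (χa χb : IrrCharacter G) (hne : χa ≠ χb)
    (hreg : ∀ g : G, ¬ p ∣ orderOf g → (χb : G → ℂ) g = (χa : G → ℂ) g)
    (hab : ∀ c : G, c ∈ CP →
      ∑ᶠ u ∈ ((P : Subgroup G) : Set G),
        (χa : G → ℂ) (u * c) * conj ((χb : G → ℂ) (u * c)) = 0)
    (f : ℕ)
    (hnorm : ∑ᶠ c ∈ ((CP : Subgroup G) : Set G),
        (χa : G → ℂ) c * conj ((χa : G → ℂ) c) = (f : ℂ) * (Nat.card ↥CP : ℂ))
    (hfp : 2 * f + 1 < p)
    (X Y : Set (IrrCharacter G)) (ε : IrrCharacter G → ℤ) (ε' : ℤ)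
    (hX : Nat.card X = f) (hXY : Nat.card X * Nat.card Y = p - 1)
    (hε : ∀ ξ ∈ X, ε ξ = 1 ∨ ε ξ = -1) (hε' : ε' = 1 ∨ ε' = -1)
    (hXsing : ∀ ξ ∈ X, ∀ g : G, p ∣ orderOf g → (ξ : G → ℂ) g = (ε ξ : ℂ))
    (hYsing : ∀ g : G, p ∣ orderOf g → ∑ᶠ η ∈ Y, (η : G → ℂ) g = -(ε' : ℂ))
    (hreg' : ∀ g : G, ¬ p ∣ orderOf g → ∀ η ∈ Y,
      ∑ᶠ ξ ∈ X, (ε ξ : ℂ) * (ξ : G → ℂ) g = (ε' : ℂ) * (η : G → ℂ) g)
    (hYavg : ∀ η ∈ Y, ∀ η' ∈ Y, ∀ c : G, c ∈ CP →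
      ∑ᶠ u ∈ ((P : Subgroup G) : Set G), (η : G → ℂ) (u * c) =
        ∑ᶠ u ∈ ((P : Subgroup G) : Set G), (η' : G → ℂ) (u * c)) :
    f = 1 := by
  classical
  have hp : p.Prime := Fact.out
  have hP' : Nat.card (P : Subgroup G) = p := hP
  have : Fintype G := Fintype.ofFinite G
  have hfinI : Finite (IrrCharacter G) := finite_irrCharacter G
  have : Fintype (IrrCharacter G) := Fintype.ofFinite _
  have : Fintype ↥CP := Fintype.ofFinite _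
  have hfinIC : Finite (IrrCharacter ↥CP) := finite_irrCharacter _
  have : Fintype (IrrCharacter ↥CP) := Fintype.ofFinite _
  -- finsets
  obtain ⟨Xf, hXf⟩ : ∃ Xf : Finset (IrrCharacter G), Xf = Finset.univ.filter (· ∈ X) := ⟨_, rfl⟩
  obtain ⟨Yf, hYf⟩ : ∃ Yf : Finset (IrrCharacter G), Yf = Finset.univ.filter (· ∈ Y) := ⟨_, rfl⟩
  have hmemX : ∀ ξ, ξ ∈ Xf ↔ ξ ∈ X := by intro ξ; rw [hXf]; simp
  have hmemY : ∀ η, η ∈ Yf ↔ η ∈ Y := by intro η; rw [hYf]; simp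
  have hXfc : Xf.card = f := by rw [hXf, card_filter_mem', hX]
  have hXYf : Xf.card * Yf.card = p - 1 := by
    rw [hXf, hYf, card_filter_mem', card_filter_mem', hXY]
  have hsumX : ∀ F : IrrCharacter G → ℂ, ∑ᶠ ξ ∈ X, F ξ = ∑ ξ ∈ Xf, F ξ := by
    intro F; rw [hXf, fsum_filter]
  have hsumY : ∀ F : IrrCharacter G → ℂ, ∑ᶠ η ∈ Y, F η = ∑ η ∈ Yf, F η := by
    intro F; rw [hYf, fsum_filter]
  -- characters
  have hχa : IsCharacter G (χa : G → ℂ) := isCharacter_of_irr χa.2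
  have hχb : IsCharacter G (χb : G → ℂ) := isCharacter_of_irr χb.2
  obtain ⟨Ξ', hΞ'def⟩ : ∃ Ξ' : G → ℂ,
      Ξ' = fun g => (χa : G → ℂ) g * conj ((χa : G → ℂ) g) := ⟨_, rfl⟩
  obtain ⟨Ξ, hΞdef⟩ : ∃ Ξ : G → ℂ,
      Ξ = fun g => (χa : G → ℂ) g * conj ((χb : G → ℂ) g) := ⟨_, rfl⟩
  have hΞ' : IsCharacter G Ξ' := by rw [hΞ'def]; exact isCharacter_mul_conj hχa hχa
  have hΞ : IsCharacter G Ξ := by rw [hΞdef]; exact isCharacter_mul_conj hχa hχb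
  have hres : ∀ {Φ : G → ℂ}, IsCharacter G Φ → IsCharacter ↥CP (fun c : ↥CP => Φ (c : G)) :=
    fun h => isCharacter_restrict CP h
  choose a' ha' using fun ξ : IrrCharacter G =>
    classInner_char_nat hΞ' (isCharacter_of_irr ξ.2)
  choose a ha using fun ξ : IrrCharacter G =>
    classInner_char_nat hΞ (isCharacter_of_irr ξ.2)
  choose m hm using fun (ξ : IrrCharacter G) (φ : IrrCharacter ↥CP) =>
    classInner_char_nat (hres (isCharacter_of_irr ξ.2)) (isCharacter_of_irr φ.2)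
  obtain ⟨βK, hβKdef⟩ : ∃ βK : ↥CP → ℂ,
      βK = fun c : ↥CP => if p ∣ orderOf c then (0 : ℂ) else (p : ℂ) := ⟨_, rfl⟩
  have hβK : IsCharacter ↥CP βK := by
    rw [hβKdef]; exact Cfsg.Agent.Lib.Helper23.BrK7a.isCharacter_preg p P hP
  choose mK hmK using fun ξ : IrrCharacter G =>
    classInner_char_nat (hres (isCharacter_of_irr ξ.2)) hβK
  obtain ⟨PT, hPTdef⟩ : ∃ PT : IrrCharacter ↥CP → Prop, PT = fun φ : IrrCharacter ↥CP =>
      ∀ x : ↥CP, (x : G) ∈ (P : Subgroup G) → (φ : ↥CP → ℂ) x = (φ : ↥CP → ℂ) 1 := ⟨_, rfl⟩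
  have hinv : ∀ φ : IrrCharacter ↥CP, PT φ → ∀ x c : ↥CP, (x : G) ∈ (P : Subgroup G) →
      (φ : ↥CP → ℂ) (x * c) = (φ : ↥CP → ℂ) c := by
    intro φ hφ x c hx
    rw [hPTdef] at hφ
    exact Cfsg.Agent.Lib.CT.Kernel.apply_mul_of_eq (isCharacter_of_irr φ.2) (hφ x hx) c
  have hsingP : ∀ u ∈ (P : Subgroup G), u ≠ 1 → p ∣ orderOf u :=
    fun u hu hu1 => dvd_orderOf_of_mem p P hP' u hu hu1
  have hdeg : ∀ ξ : IrrCharacter G, ((charDegree (ξ : G → ℂ) : ℕ) : ℂ) = (ξ : G → ℂ) 1 :=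
    fun ξ => char_natCast_charDegree (isCharacter_of_irr ξ.2)
  have htriv1 : ((triv ↥CP : IrrCharacter ↥CP) : ↥CP → ℂ) = fun _ => 1 := rfl
  -- F1
  have F1 : ∀ ξ ∈ Xf, (a' ξ : ℤ) - a ξ = ε ξ := by
    intro ξ hξ
    have hξX := (hmemX ξ).mp hξ
    have h := Cfsg.Agent.Lib.Helper69.BrK1.inner_diff_const p χa χb hne hreg (ξ : G → ℂ)
      (ε ξ : ℂ) (hXsing ξ hξX)
    have h' : classInner Ξ' (ξ : G → ℂ) - classInner Ξ (ξ : G → ℂ) = conj ((ε ξ : ℤ) : ℂ) := by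
      rw [hΞ'def, hΞdef]; exact h
    rw [ha' ξ, ha ξ] at h'
    have h2 : (((a' ξ : ℤ) - (a ξ : ℤ) : ℤ) : ℂ) = ((ε ξ : ℤ) : ℂ) := by
      push_cast; rw [h']; simp
    exact_mod_cast h2
  -- F3
  have hS2 : ∀ φ : IrrCharacter ↥CP, PT φ →
      classInner (fun c : ↥CP => Ξ (c : G)) (φ : ↥CP → ℂ) = 0 := by
    intro φ hφ
    have h := Cfsg.Agent.Lib.Helper82.BrK347.inner_res_congr_of_avg p P hP Ξ (fun _ => 0)
      (by
        intro c hc
        rw [hΞdef]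
        rw [hab c hc]; simp) (φ : ↥CP → ℂ) (hinv φ hφ)
    rw [h]; simp [classInner]
  have F3 : ∀ ξ φ, PT φ → a ξ ≠ 0 → m ξ φ = 0 := by
    intro ξ φ hφ hane
    have h := Cfsg.Agent.Lib.Helper69.BrK2.mono CP Ξ hΞ (φ : ↥CP → ℂ) (isCharacter_of_irr φ.2) {ξ}
    rw [Finset.sum_singleton, ha ξ, hm ξ φ, hS2 φ hφ] at h
    simp only [Complex.natCast_re, Complex.zero_re] at h
    have h2 : a ξ * m ξ φ = 0 := by
      have h3 : ((a ξ * m ξ φ : ℕ) : ℝ) ≤ 0 := by push_cast; exact h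
      have h4 : a ξ * m ξ φ ≤ 0 := by exact_mod_cast h3
      omega
    rcases Nat.mul_eq_zero.mp h2 with h3 | h3
    · exact absurd h3 hane
    · exact h3
  -- F4
  have F4 : ∀ ξ ∈ Xf, ε ξ = 1 → charDegree (ξ : G → ℂ) + p =
      p * (∑ φ ∈ Finset.univ.filter PT, m ξ φ * charDegree (φ : ↥CP → ℂ)) + 1 := by
    intro ξ hξ hε1
    have hξX := (hmemX ξ).mp hξ
    have h5 := Cfsg.Agent.Lib.Helper35.BrK5.avg_eq_sum_trivOn p P hP (ξ : G → ℂ)
      (isCharacter_of_irr ξ.2)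
    have hL := finsum_P_eq p P hP' (ξ : G → ℂ) (fun u hu hu1 => by
      rw [hXsing ξ hξX u (hsingP u hu hu1), hε1]; simp)
    rw [h5] at hL
    have hR : (∑ φ : IrrCharacter ↥CP,
        if (∀ x : ↥CP, (x : G) ∈ (P : Subgroup G) → (φ : ↥CP → ℂ) x = (φ : ↥CP → ℂ) 1)
        then classInner (fun c : ↥CP => (ξ : G → ℂ) (c : G)) (φ : ↥CP → ℂ) * (φ : ↥CP → ℂ) 1
        else 0) =
        ((∑ φ ∈ Finset.univ.filter PT, m ξ φ * charDegree (φ : ↥CP → ℂ) : ℕ) : ℂ) := by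
      rw [Finset.sum_filter]
      push_cast
      apply Finset.sum_congr rfl
      intro φ _
      rw [hPTdef]
      by_cases hc : (∀ x : ↥CP, (x : G) ∈ (P : Subgroup G) → (φ : ↥CP → ℂ) x = (φ : ↥CP → ℂ) 1)
      · rw [if_pos hc, if_pos hc, hm ξ φ, char_natCast_charDegree (isCharacter_of_irr φ.2)]
      · rw [if_neg hc, if_neg hc]
    rw [hR] at hL
    have h6 : ((charDegree (ξ : G → ℂ) + p : ℕ) : ℂ) =
        ((p * (∑ φ ∈ Finset.univ.filter PT, m ξ φ * charDegree (φ : ↥CP → ℂ)) + 1 : ℕ) : ℂ) := by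
      rw [Nat.cast_add, hdeg ξ, ← hL]
      push_cast
      ring
    exact_mod_cast h6
  -- F6
  have F6 : (∑ η ∈ Yf, (a' η : ℤ)) - ∑ η ∈ Yf, (a η : ℤ) = -ε' := by
    have h := Cfsg.Agent.Lib.Helper69.BrK1.inner_diff_const p χa χb hne hreg
      (fun g => ∑ η ∈ Yf, (η : G → ℂ) g) (-(ε' : ℂ))
      (fun g hg => by rw [← hsumY]; exact hYsing g hg)
    have h' : classInner Ξ' (fun g => ∑ η ∈ Yf, (η : G → ℂ) g) -
        classInner Ξ (fun g => ∑ η ∈ Yf, (η : G → ℂ) g) = conj (-((ε' : ℤ) : ℂ)) := by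
      rw [hΞ'def, hΞdef]; exact h
    rw [classInner_sum_right', classInner_sum_right'] at h'
    simp_rw [ha', ha] at h'
    have h2 : (((∑ η ∈ Yf, (a' η : ℤ)) - ∑ η ∈ Yf, (a η : ℤ) : ℤ) : ℂ) = ((-ε' : ℤ) : ℂ) := by
      push_cast; rw [h']; simp
    exact_mod_cast h2
  -- F6'
  have F6' : ∀ η ∈ Yf, ∀ η' ∈ Yf, ∀ φ, PT φ → m η φ = m η' φ := by
    intro η hη η' hη' φ hφ
    have h := Cfsg.Agent.Lib.Helper82.BrK347.inner_res_congr_of_avg p P hP (η : G → ℂ)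
      (η' : G → ℂ) (hYavg η ((hmemY η).mp hη) η' ((hmemY η').mp hη')) (φ : ↥CP → ℂ) (hinv φ hφ)
    rw [hm η φ, hm η' φ] at h
    exact_mod_cast h
  -- F7
  have F7 : ∀ φ, PT φ → φ ≠ triv ↥CP →
      (Yf.card : ℤ) * ∑ ξ ∈ Xf, ε ξ * (m ξ φ : ℤ) = ε' * ∑ η ∈ Yf, (m η φ : ℤ) := by
    intro φ hφ hφ1
    have h := Cfsg.Agent.Lib.Helper82.BrK347.trivial_root_relation p P hP Xf Yf ε ε' hXYf
      (fun ξ hξ => hε ξ ((hmemX ξ).mp hξ)) hε' (fun ξ hξ => hXsing ξ ((hmemX ξ).mp hξ))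
      (fun g hg => by rw [← hsumY]; exact hYsing g hg)
      (fun g hg η hη => by rw [← hsumX]; exact hreg' g hg η ((hmemY η).mp hη))
      (φ : ↥CP → ℂ) (hinv φ hφ)
    have h1 : classInner (fun _ : ↥CP => (1 : ℂ)) (φ : ↥CP → ℂ) = 0 := by
      have h0 := irr_orthonormal (triv ↥CP) φ
      rw [if_neg (Ne.symm hφ1)] at h0
      exact h0
    rw [h1, mul_zero] at h
    simp_rw [hm] at h
    have h2 : (((Yf.card : ℤ) * ∑ ξ ∈ Xf, ε ξ * (m ξ φ : ℤ) : ℤ) : ℂ) =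
        ((ε' * ∑ η ∈ Yf, (m η φ : ℤ) : ℤ) : ℂ) := by
      push_cast
      linear_combination h
    exact_mod_cast h2
  -- F8
  have F8 : ∀ ξ ∈ Xf, ε ξ = 1 → charDegree (ξ : G → ℂ) = 1 → ξ = triv G := by
    intro ξ hξ hε1 hd1
    have hξX := (hmemX ξ).mp hξ
    have h1 : (ξ : G → ℂ) 1 = 1 := by rw [← hdeg ξ, hd1]; simp
    have h := Cfsg.Agent.Lib.Helper1.BrK6.eq_one_of_trivial_on (P : Subgroup G) hgen
      (ξ : G → ℂ) (isCharacter_of_irr ξ.2) h1 (fun x hx => by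
        by_cases hx1 : x = 1
        · rw [hx1]; exact h1
        · rw [hXsing ξ hξX x (hsingP x hx hx1), hε1]; simp)
    apply Subtype.ext
    funext g
    exact h g
  -- F9
  have hnorm' : ∑ c : ↥CP, (χa : G → ℂ) c * conj ((χa : G → ℂ) c) =
      (f : ℂ) * (Nat.card ↥CP : ℂ) := by
    rw [← finsum_C_eq p P (fun c => (χa : G → ℂ) c * conj ((χa : G → ℂ) c))]; exact hnorm
  have hcardC : (Nat.card ↥CP : ℂ) ≠ 0 := Nat.cast_ne_zero.mpr Nat.card_pos.ne'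
  have hΞ'C1 : classInner (fun c : ↥CP => Ξ' (c : G)) (fun _ => (1 : ℂ)) = f := by
    rw [hΞ'def]
    unfold classInner
    simp only [map_one, mul_one]
    rw [hnorm']; field_simp
  have F9 : ∀ S ⊆ Xf, ∑ ξ ∈ S, a' ξ * m ξ (triv ↥CP) ≤ f := by
    intro S _
    have h := Cfsg.Agent.Lib.Helper69.BrK2.mono CP Ξ' hΞ' (fun _ => (1 : ℂ)) isCharacter_one S
    rw [hΞ'C1] at h
    have h2 : ∀ ξ ∈ S, (classInner Ξ' (ξ : G → ℂ)).re *
        (classInner (fun c : ↥CP => (ξ : G → ℂ) (c : G)) (fun _ => (1 : ℂ))).re =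
        ((a' ξ * m ξ (triv ↥CP) : ℕ) : ℝ) := by
      intro ξ _
      rw [ha' ξ]
      have h3 := hm ξ (triv ↥CP)
      rw [htriv1] at h3
      rw [h3]; simp
    rw [Finset.sum_congr rfl h2] at h
    simp only [Complex.natCast_re] at h
    exact_mod_cast h
  -- F10a
  have F10a : ∀ ξ ∈ Xf, ε ξ = -1 → m ξ (triv ↥CP) = 0 → mK ξ + 1 = p := by
    intro ξ hξ hεm hm0
    have hξX := (hmemX ξ).mp hξ
    have h := Cfsg.Agent.Lib.Helper82.BrK347.inner_one_of_const_sing p P hP (ξ : G → ℂ) (-1)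
      (fun c hc => by
        have hc' : p ∣ orderOf (c : G) := by rw [Subgroup.orderOf_coe]; exact hc
        rw [hXsing ξ hξX (c : G) hc', hεm]; simp)
    have h1 := hm ξ (triv ↥CP)
    rw [htriv1] at h1
    rw [h1, hm0] at h
    have h2 := hmK ξ
    rw [hβKdef] at h2
    rw [h2] at h
    have h3 : ((mK ξ + 1 : ℕ) : ℂ) = ((p : ℕ) : ℂ) := by
      push_cast
      push_cast at h
      linear_combination -h
    exact_mod_cast h3
  -- F10b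
  have hΞC : classInner (fun c : ↥CP => Ξ (c : G)) βK =
      classInner (fun c : ↥CP => Ξ' (c : G)) βK := by
    unfold classInner
    congr 1
    apply Finset.sum_congr rfl
    intro c _
    rw [hβKdef, hΞdef, hΞ'def]
    by_cases hc : p ∣ orderOf c
    · simp [hc]
    · have hc' : ¬ p ∣ orderOf (c : G) := by rw [Subgroup.orderOf_coe]; exact hc
      simp only [hreg (c : G) hc']
  have hff : classInner (fun c : ↥CP => (χa : G → ℂ) (c : G))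
      (fun c : ↥CP => (χa : G → ℂ) (c : G)) = f := by
    unfold classInner; rw [hnorm']; field_simp
  have hK7b := Cfsg.Agent.Lib.Helper23.BrK7b.preg_norm p P hP
    (fun c : ↥CP => (χa : G → ℂ) (c : G)) (hres hχa) f hff
  have F10b : ∀ S ⊆ Xf, ∑ ξ ∈ S, a ξ * mK ξ ≤ f ^ 2 := by
    intro S _
    have h := Cfsg.Agent.Lib.Helper69.BrK2.mono CP Ξ hΞ βK hβK S
    rw [hΞC] at h
    have h2 : ∀ ξ ∈ S, (classInner Ξ (ξ : G → ℂ)).re *
        (classInner (fun c : ↥CP => (ξ : G → ℂ) (c : G)) βK).re = ((a ξ * mK ξ : ℕ) : ℝ) := by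
      intro ξ _
      rw [ha ξ, hmK ξ]; simp
    rw [Finset.sum_congr rfl h2] at h
    have h3 : (classInner (fun c : ↥CP => Ξ' (c : G)) βK).re ≤ (f : ℝ) ^ 2 := by
      rw [hΞ'def, hβKdef]; exact hK7b
    have h4 : ((∑ ξ ∈ S, a ξ * mK ξ : ℕ) : ℝ) ≤ ((f ^ 2 : ℕ) : ℝ) := by
      push_cast
      push_cast at h
      exact le_trans h h3
    exact_mod_cast h4
  have hPT1 : PT (triv ↥CP) := by
    rw [hPTdef]; intro x _; rfl
  have hdg1 : charDegree ((triv ↥CP : IrrCharacter ↥CP) : ↥CP → ℂ) = 1 :=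
    charDegree_eq_of_apply_one (n := 1) (by rw [htriv1]; simp)
  exact core_abs p f hp hfp Xf Yf ε ε' hXfc hXYf (fun ξ hξ => hε ξ ((hmemX ξ).mp hξ)) hε'
    a' a (fun ξ => charDegree (ξ : G → ℂ)) mK m (triv ↥CP) PT
    (fun φ => charDegree (φ : ↥CP → ℂ)) (triv G) hPT1 hdg1 F1 F3 F4 F6 F6' F7 F8 F9 F10a F10b

end

variable {G : Type u} [Group G]

/-- **S4503/A1**: the double count. -/
theorem core_count [Finite G] (p : ℕ) [Fact p.Prime] (P : Sylow p G) (hP : Nat.card P = p)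
    (hgen : Subgroup.normalClosure ((P : Subgroup G) : Set G) = ⊤)
    (χa χb : IrrCharacter G) (hne : χa ≠ χb)
    (hreg : ∀ g : G, ¬ p ∣ orderOf g → (χb : G → ℂ) g = (χa : G → ℂ) g)
    (hab : ∀ c : G, c ∈ Subgroup.centralizer ((P : Subgroup G) : Set G) →
      ∑ᶠ u ∈ ((P : Subgroup G) : Set G),
        (χa : G → ℂ) (u * c) * conj ((χb : G → ℂ) (u * c)) = 0)
    (f : ℕ)
    (hnorm : ∑ᶠ c ∈ ((Subgroup.centralizer ((P : Subgroup G) : Set G) : Subgroup G) : Set G),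
        (χa : G → ℂ) c * conj ((χa : G → ℂ) c) =
        (f : ℂ) * (Nat.card ↥(Subgroup.centralizer ((P : Subgroup G) : Set G)) : ℂ))
    (hfp : 2 * f + 1 < p)
    (X Y : Set (IrrCharacter G)) (ε : IrrCharacter G → ℤ) (ε' : ℤ)
    (hX : Nat.card X = f) (hXY : Nat.card X * Nat.card Y = p - 1)
    (hε : ∀ ξ ∈ X, ε ξ = 1 ∨ ε ξ = -1) (hε' : ε' = 1 ∨ ε' = -1)
    (hXsing : ∀ ξ ∈ X, ∀ g : G, p ∣ orderOf g → (ξ : G → ℂ) g = (ε ξ : ℂ))
    (hYsing : ∀ g : G, p ∣ orderOf g → ∑ᶠ η ∈ Y, (η : G → ℂ) g = -(ε' : ℂ))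
    (hreg' : ∀ g : G, ¬ p ∣ orderOf g → ∀ η ∈ Y,
      ∑ᶠ ξ ∈ X, (ε ξ : ℂ) * (ξ : G → ℂ) g = (ε' : ℂ) * (η : G → ℂ) g)
    (hYavg : ∀ η ∈ Y, ∀ η' ∈ Y, ∀ c : G, c ∈ Subgroup.centralizer ((P : Subgroup G) : Set G) →
      ∑ᶠ u ∈ ((P : Subgroup G) : Set G), (η : G → ℂ) (u * c) =
        ∑ᶠ u ∈ ((P : Subgroup G) : Set G), (η' : G → ℂ) (u * c)) :
    f = 1 :=
  core_count_aux p P hP hgen χa χb hne hreg hab f hnorm hfp X Y ε ε' hX hXY hε hε' hXsing hYsing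
    hreg' hYavg

end Cfsg.Agent.Lib.Helper81.BrA1
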