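import Mathlib
import Cfsg.Agent.Lib.Helper80.BTStmt
import Cfsg.Agent.Lib.Helper80.Integrality
import Cfsg.Agent.Lib.CT.ThirdMain
import Cfsg.Agent.Lib.CT.LinChar
import Cfsg.Agent.Lib.CT.Kernel

/-!
# S0997 (Brauer-Tuan): common lemmas for the pieces ONEX, YFACTS, POW2B
-/

set_option autoImplicit false
set_option linter.style.haveILetI false
set_option linter.unusedSectionVars false

namespace Cfsg.Agent.Lib.Helper81.BTCommon

open Cfsg
open Cfsg.Agent.Lib.Helper80.BTStmt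
open Cfsg.Agent.Lib.CT.Wedderburn

universe u

variable {G : Type u} [Group G]

/-- A linear character of a simple non-cyclic group is trivial. -/
theorem linear_trivial [Finite G] (hs : IsSimpleGroup G) (hnc : ¬ IsCyclic G)
    (χ : IrrCharacter G) (h1 : charDegree (χ : G → ℂ) = 1) :
    (χ : G → ℂ) = fun _ => 1 := by
  have hχ : IsCharacter G (χ : G → ℂ) := isCharacter_of_irr χ.2
  have h1' : (χ : G → ℂ) 1 = 1 := by
    rw [← char_natCast_charDegree hχ, h1, Nat.cast_one]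
  obtain ⟨f, hf⟩ := Cfsg.Agent.Lib.CT.LinChar.exists_hom_of_isCharacter _ hχ h1'
  rcases (MonoidHom.normal_ker f).eq_bot_or_eq_top with h | h
  · exfalso
    apply hnc
    have hinj : Function.Injective f := (MonoidHom.ker_eq_bot_iff f).mp h
    have hcomm : ∀ a b : G, a * b = b * a := by
      intro a b
      apply hinj
      rw [map_mul, map_mul, mul_comm]
    letI : CommGroup G := { (inferInstance : Group G) with mul_comm := hcomm }
    exact IsSimpleGroup.isCyclic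
  · funext g
    have hg : g ∈ f.ker := by rw [h]; exact Subgroup.mem_top g
    rw [hf g, MonoidHom.mem_ker.mp hg]
    rfl

/-- `g₀ ≠ 0` and `3 ≤ p`. -/
theorem three_le [Finite G] {p q b g₀ : ℕ} (h : Hyp G p q b g₀) : 1 ≤ g₀ ∧ 3 ≤ p := by
  obtain ⟨-, -, hp, hq, hpq, hcard, hlt⟩ := h
  have hpos : 0 < Nat.card G := Nat.card_pos
  have hg0 : g₀ ≠ 0 := by
    rintro rfl
    rw [mul_zero] at hcard
    omega
  omega

/-- `e ∣ p - 1`. -/
theorem e_dvd [Finite G] {p : ℕ} (hp : p.Prime) (c : Ctx G p) : c.e ∣ p - 1 := by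
  have hP' : Nat.card ↥(c.P : Subgroup G) = p := c.hP
  have hcyc : IsCyclic ↥(c.P : Subgroup G) := by
    haveI : Fact p.Prime := ⟨hp⟩
    exact isCyclic_of_prime_card hP'
  have h1 : Nat.card (MulAut ↥(c.P : Subgroup G)) = p - 1 := by
    rw [IsCyclic.card_mulAut, hP', Nat.totient_prime hp]
  have hker := Subgroup.normalizerMonoidHom_ker (c.P : Subgroup G)
  rw [← c.he, Subgroup.relIndex, ← hker, Subgroup.index_ker, ← h1]
  exact Subgroup.card_subgroup_dvd_card _

/-- `1 ≤ e ≤ p - 1`. -/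
theorem e_bounds [Finite G] {p : ℕ} (hp : p.Prime) (c : Ctx G p) : 1 ≤ c.e ∧ c.e ≤ p - 1 := by
  have h := e_dvd hp c
  have hp2 := hp.two_le
  have hpos : 0 < p - 1 := by omega
  exact ⟨Nat.pos_of_dvd_of_pos h hpos, Nat.le_of_dvd hpos h⟩

/-- A number `≡ ±1 (mod p)` is prime to `p`. -/
theorem not_dvd_of_modEq {p d : ℕ} (hp : p.Prime)
    (h : ((d : ℤ) ≡ 1 [ZMOD (p : ℤ)]) ∨ ((d : ℤ) ≡ -1 [ZMOD (p : ℤ)])) : ¬ p ∣ d := by
  intro hd
  have hd' : ((p : ℤ)) ∣ (d : ℤ) := Int.natCast_dvd_natCast.mpr hd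
  have hp2 := hp.two_le
  rcases h with h | h
  · have h2 : (p : ℤ) ∣ 1 - (d : ℤ) := h.dvd
    have h3 : (p : ℤ) ∣ 1 := by
      have := dvd_add h2 hd'
      simpa using this
    have := Int.le_of_dvd one_pos h3
    omega
  · have h2 : (p : ℤ) ∣ -1 - (d : ℤ) := h.dvd
    have h3 : (p : ℤ) ∣ -1 := by
      have := dvd_add h2 hd'
      simpa using this
    have h4 : (p : ℤ) ∣ 1 := by
      have := dvd_neg.mpr h3
      simpa using this
    have := Int.le_of_dvd one_pos h4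
    omega

/-- A positive number `< p - 1` which is `≡ ±1 (mod p)` is `1`. -/
theorem eq_one_of_small {p d : ℕ} (hd0 : 0 < d) (hd : d < p - 1)
    (h : ((d : ℤ) ≡ 1 [ZMOD (p : ℤ)]) ∨ ((d : ℤ) ≡ -1 [ZMOD (p : ℤ)])) : d = 1 := by
  rcases h with h | h
  · have h2 : (p : ℤ) ∣ (d : ℤ) - 1 := by
      have := h.symm.dvd
      simpa using this
    by_contra hne
    have hpos : (0 : ℤ) < (d : ℤ) - 1 := by omega
    have := Int.le_of_dvd hpos h2
    omega
  · exfalso
    have h2 : (p : ℤ) ∣ (d : ℤ) + 1 := by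
      have := h.symm.dvd
      have h3 : (d : ℤ) - -1 = (d : ℤ) + 1 := by ring
      rwa [h3] at this
    have hpos : (0 : ℤ) < (d : ℤ) + 1 := by omega
    have := Int.le_of_dvd hpos h2
    omega

/-- A degree prime to `p` and `q` divides `g₀`. -/
theorem deg_dvd_g0 [Finite G] {p q b g₀ : ℕ} (h : Hyp G p q b g₀) (χ : IrrCharacter G)
    (hp : ¬ p ∣ charDegree (χ : G → ℂ)) (hq : ¬ q ∣ charDegree (χ : G → ℂ)) :
    charDegree (χ : G → ℂ) ∣ g₀ := by
  obtain ⟨-, -, hpp, hqp, hpq, hcard, hlt⟩ := h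
  have hd := Cfsg.Agent.Lib.Helper80.Integrality.charDegree_dvd_card χ
  rw [hcard] at hd
  have hcp : Nat.Coprime (charDegree (χ : G → ℂ)) p :=
    (Nat.Coprime.symm ((Nat.Prime.coprime_iff_not_dvd hpp).mpr hp))
  have hcq : Nat.Coprime (charDegree (χ : G → ℂ)) (q ^ b) :=
    Nat.Coprime.pow_right b (Nat.Coprime.symm ((Nat.Prime.coprime_iff_not_dvd hqp).mpr hq))
  have h1 : charDegree (χ : G → ℂ) ∣ q ^ b * g₀ := by
    rw [mul_assoc] at hd
    exact hcp.dvd_of_dvd_mul_left hd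
  exact hcq.dvd_of_dvd_mul_left h1

/-- An irreducible character of degree `≡ ±1 (mod p)` and prime to `q` is trivial. -/
theorem trivial_of_not_dvd [Finite G] {p q b g₀ : ℕ} (h : Hyp G p q b g₀) (χ : IrrCharacter G)
    (hmod : ((charDegree (χ : G → ℂ) : ℤ) ≡ 1 [ZMOD (p : ℤ)]) ∨
      ((charDegree (χ : G → ℂ) : ℤ) ≡ -1 [ZMOD (p : ℤ)]))
    (hq : ¬ q ∣ charDegree (χ : G → ℂ)) : (χ : G → ℂ) = fun _ => 1 := by
  have h' := h
  obtain ⟨hs, hnc, hpp, hqp, hpq, hcard, hlt⟩ := h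
  obtain ⟨hg0, hp3⟩ := three_le h'
  have hnp := not_dvd_of_modEq hpp hmod
  have hdvd := deg_dvd_g0 h' χ hnp hq
  have hle := Nat.le_of_dvd (by omega) hdvd
  have hpos := irr_charDegree_pos χ.2
  have h1 := eq_one_of_small hpos (by omega) hmod
  exact linear_trivial hs hnc χ h1

/-- The sign of the trivial character is `1`. -/
theorem eps_triv [Finite G] {p : ℕ} (hp3 : 3 ≤ p) (c : Ctx G p) (t : IrrCharacter G)
    (ht : t ∈ c.X) (h1 : (t : G → ℂ) = fun _ => 1) : c.εX t = 1 := by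
  obtain ⟨hpm, hmod, -⟩ := c.hεX t ht
  have hdeg : charDegree (t : G → ℂ) = 1 := by
    apply charDegree_eq_of_apply_one
    rw [h1]
    simp
  rcases hpm with h | h
  · exact h
  · exfalso
    rw [hdeg, h] at hmod
    have h2 : (p : ℤ) ∣ -1 - ((1 : ℕ) : ℤ) := hmod.dvd
    have h3 : (p : ℤ) ∣ 2 := by
      have := dvd_neg.mpr h2
      have h4 : -(-1 - ((1 : ℕ) : ℤ)) = 2 := by norm_num
      rwa [h4] at this
    have := Int.le_of_dvd (by norm_num) h3
    omega

/-- `X` is finite. -/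
theorem finite_X [Finite G] {p : ℕ} (c : Ctx G p) : c.X.Finite := by
  haveI := finite_irrCharacter G
  exact Set.toFinite _

/-- The degree equation: `ε f = ∑_{χ ∈ X} εX χ · χ(1)`. -/
theorem degree_eq [Finite G] {p : ℕ} (hp : p.Prime) (c : Ctx G p) (θ : IrrCharacter G)
    (hθ : θ ∈ c.Y) :
    c.ε * (charDegree (θ : G → ℂ) : ℤ) =
      ∑ χ ∈ (finite_X c).toFinset, c.εX χ * (charDegree (χ : G → ℂ) : ℤ) := by
  have h1 : ¬ p ∣ orderOf (1 : G) := by
    rw [orderOf_one]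
    intro h
    have := Nat.le_of_dvd one_pos h
    have := hp.two_le
    omega
  have h := c.hYX θ hθ 1 h1
  rw [finsum_mem_eq_finite_toFinset_sum _ (finite_X c)] at h
  have hcast : ((c.ε * (charDegree (θ : G → ℂ) : ℤ) : ℤ) : ℂ) =
      ((∑ χ ∈ (finite_X c).toFinset, c.εX χ * (charDegree (χ : G → ℂ) : ℤ) : ℤ) : ℂ) := by
    push_cast
    rw [char_natCast_charDegree (isCharacter_of_irr θ.2), h]
    refine Finset.sum_congr rfl fun χ _ => ?_
    rw [char_natCast_charDegree (isCharacter_of_irr χ.2)]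
  exact_mod_cast hcast

/-- A nontrivial irreducible character of a simple group is faithful. -/
theorem faithful_of_simple [Finite G] (hs : IsSimpleGroup G) (χ : IrrCharacter G)
    (hχ : (χ : G → ℂ) ≠ fun _ => 1) (g : G)
    (hg : (χ : G → ℂ) g = (χ : G → ℂ) 1) : g = 1 := by
  obtain ⟨N, hN, hmem⟩ := Cfsg.Agent.Lib.CT.Kernel.exists_normal_ker (isCharacter_of_irr χ.2)
  rcases hN.eq_bot_or_eq_top with h | h
  · have h1 : g ∈ N := (hmem g).mpr hg
    rw [h] at h1
    exact Subgroup.mem_bot.mp h1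
  · exfalso
    haveI : Fintype G := Fintype.ofFinite G
    have hconst : ∀ x : G, (χ : G → ℂ) x = (χ : G → ℂ) 1 := fun x =>
      (hmem x).mp (by rw [h]; exact Subgroup.mem_top x)
    have hne' : χ ≠ Cfsg.Agent.Lib.CT.ThirdMain.triv G := fun h => hχ (by rw [h]; rfl)
    have h1 := irr_orthonormal χ (Cfsg.Agent.Lib.CT.ThirdMain.triv G)
    rw [if_neg hne'] at h1
    unfold classInner at h1
    have h2 : ∑ g : G, (χ : G → ℂ) g *
        (starRingEnd ℂ) (((Cfsg.Agent.Lib.CT.ThirdMain.triv G : IrrCharacter G) : G → ℂ) g)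
        = (Nat.card G : ℂ) * (χ : G → ℂ) 1 := by
      rw [Finset.sum_congr rfl (fun g _ => by
        rw [hconst g, Cfsg.Agent.Lib.CT.ThirdMain.coe_triv, map_one, mul_one])]
      rw [Finset.sum_const, Finset.card_univ, nsmul_eq_mul, Nat.card_eq_fintype_card]
    rw [h2] at h1
    have hne : (Nat.card G : ℂ) ≠ 0 := Nat.cast_ne_zero.mpr Nat.card_pos.ne'
    have h3 : (χ : G → ℂ) 1 = 0 := by
      have h4 : (Nat.card G : ℂ)⁻¹ * ((Nat.card G : ℂ) * (χ : G → ℂ) 1) = (χ : G → ℂ) 1 := by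
        field_simp
      rw [← h4, h1]
    have hpos := irr_charDegree_pos χ.2
    have h5 : (charDegree (χ : G → ℂ) : ℂ) = 0 := by
      rw [char_natCast_charDegree (isCharacter_of_irr χ.2), h3]
    have h6 : charDegree (χ : G → ℂ) = 0 := by exact_mod_cast h5
    omega

/-- The degree of the constant function `1` is `1`. -/
theorem deg_of_triv (t : IrrCharacter G) (h1 : (t : G → ℂ) = fun _ => 1) :
    charDegree (t : G → ℂ) = 1 := by
  apply charDegree_eq_of_apply_one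
  rw [h1]
  simp

/-- `X ∖ {t}` is finite. -/
theorem finite_X' [Finite G] {p : ℕ} (c : Ctx G p) (t : IrrCharacter G) : (c.X \ {t}).Finite :=
  (finite_X c).subset Set.sdiff_subset

/-- The degree equation with the trivial character split off. -/
theorem degree_eq' [Finite G] {p : ℕ} (hp : p.Prime) (hp3 : 3 ≤ p) (c : Ctx G p)
    (θ : IrrCharacter G) (hθ : θ ∈ c.Y) (t : IrrCharacter G) (ht : t ∈ c.X)
    (h1 : (t : G → ℂ) = fun _ => 1) :
    c.ε * (charDegree (θ : G → ℂ) : ℤ) =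
      1 + ∑ χ ∈ (finite_X' c t).toFinset, c.εX χ * (charDegree (χ : G → ℂ) : ℤ) := by
  classical
  have hdeg := degree_eq hp c θ hθ
  have htmem : t ∈ (finite_X c).toFinset := (Set.Finite.mem_toFinset _).mpr ht
  rw [← Finset.add_sum_erase _ _ htmem, eps_triv hp3 c t ht h1, deg_of_triv t h1] at hdeg
  have hset : (finite_X c).toFinset.erase t = (finite_X' c t).toFinset := by
    ext χ
    simp only [Finset.mem_erase, Set.Finite.mem_toFinset, Set.mem_sdiff, Set.mem_singleton_iff]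
    tauto
  rw [hset] at hdeg
  rw [hdeg]
  norm_num

/-- Members of `X` other than the trivial one. -/
theorem mem_X'_iff [Finite G] {p : ℕ} (c : Ctx G p) (t : IrrCharacter G)
    (h1 : (t : G → ℂ) = fun _ => 1) (χ : IrrCharacter G) :
    χ ∈ (finite_X' c t).toFinset ↔ (χ ∈ c.X ∧ (χ : G → ℂ) ≠ fun _ => 1) := by
  rw [Set.Finite.mem_toFinset, Set.mem_sdiff, Set.mem_singleton_iff]
  constructor
  · rintro ⟨hX, hne⟩
    exact ⟨hX, fun h => hne (Subtype.ext (h.trans h1.symm))⟩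
  · rintro ⟨hX, hne⟩
    exact ⟨hX, fun h => hne (by rw [h]; exact h1)⟩

/-- The trivial character lies in `X` or in `Y`. -/
theorem triv_mem [Finite G] {p : ℕ} (c : Ctx G p) :
    Cfsg.Agent.Lib.CT.ThirdMain.triv G ∈ c.X ∪ c.Y := by
  rw [← c.hXY]
  exact Cfsg.Agent.Lib.CT.ThirdMain.triv_mem_principalBlock c.hM.2.1.isPrime

/-- An irreducible character which is the constant `1` is `triv G`. -/
theorem eq_triv (χ : IrrCharacter G) (h : (χ : G → ℂ) = fun _ => 1) :
    χ = Cfsg.Agent.Lib.CT.ThirdMain.triv G := Subtype.ext h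

end Cfsg.Agent.Lib.Helper81.BTCommon
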