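import Mathlib
import Cfsg.Agent.Lib.Helper80.BTStmt
import Cfsg.Agent.Lib.Helper81.BTCommon

/-!
# S0997 piece ONEX
-/

set_option autoImplicit false
set_option linter.style.haveILetI false

namespace Cfsg.Agent.Lib.Helper81.BTONEX

open Cfsg
open Cfsg.Agent.Lib.Helper80.BTStmt Cfsg.Agent.Lib.Helper81.BTCommon
open Cfsg.Agent.Lib.CT.Wedderburn

universe u

theorem main : ONEX.{u} := by
  intro G _ _ p q b g₀ hH c
  have hH' := hH
  obtain ⟨hs, hnc, hpp, hqp, hpq, hcard, hlt⟩ := hH
  obtain ⟨hg0, hp3⟩ := three_le hH'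
  obtain ⟨he1, hele⟩ := e_bounds hpp c
  have key : ∀ χ ∈ c.X, (χ : G → ℂ) ≠ (fun _ => 1) → q ∣ charDegree (χ : G → ℂ) := by
    intro χ hχ hne
    by_contra hq
    obtain ⟨hpm, hmod, -⟩ := c.hεX χ hχ
    apply hne
    apply trivial_of_not_dvd hH' χ _ hq
    rcases hpm with h | h
    · left
      rw [h] at hmod
      exact hmod
    · right
      rw [h] at hmod
      exact hmod
  rcases triv_mem c with hX | hY
  · exact ⟨⟨Cfsg.Agent.Lib.CT.ThirdMain.triv G, hX, rfl⟩, key⟩
  · exfalso
    have h1 : ¬ p ∣ orderOf (1 : G) := by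
      rw [orderOf_one]
      intro h
      have := Nat.le_of_dvd one_pos h
      omega
    have hYall : ∀ θ ∈ c.Y, θ = Cfsg.Agent.Lib.CT.ThirdMain.triv G := by
      intro θ hθ
      have h2 := c.hYreg θ hθ _ hY 1 h1
      have hdeg : charDegree (θ : G → ℂ) = 1 := by
        apply charDegree_eq_of_apply_one
        rw [h2, Cfsg.Agent.Lib.CT.ThirdMain.coe_triv]
        simp
      exact eq_triv θ (linear_trivial hs hnc θ hdeg)
    have hYeq : c.Y = {Cfsg.Agent.Lib.CT.ThirdMain.triv G} := by
      ext θ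
      constructor
      · intro h
        exact hYall θ h
      · intro h
        rw [Set.mem_singleton_iff] at h
        rw [h]
        exact hY
    have hcardY : Nat.card c.Y = 1 := by
      rw [hYeq]
      simp
    have hedvd := e_dvd hpp c
    have he : c.e = p - 1 := by
      rw [c.hY] at hcardY
      obtain ⟨k, hk⟩ := hedvd
      rw [hk, Nat.mul_div_cancel_left k (by omega)] at hcardY
      rw [hk, hcardY, mul_one]
    have hdt : charDegree ((Cfsg.Agent.Lib.CT.ThirdMain.triv G : IrrCharacter G) : G → ℂ) = 1 :=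
      deg_of_triv _ rfl
    have hε : c.ε = -1 := by
      rcases c.hε with h | h
      · exfalso
        have hmod := c.hYdeg _ hY
        rw [h, hdt, he] at hmod
        have h2 : (p : ℤ) ∣ 1 * (((p - 1 : ℕ)) : ℤ) - ((1 : ℕ) : ℤ) := hmod.dvd
        have h3 : (((p - 1 : ℕ)) : ℤ) = (p : ℤ) - 1 := by
          rw [Nat.cast_sub (by omega)]
          simp
        rw [h3] at h2
        have h4 : (p : ℤ) ∣ 2 := by
          have h6 := dvd_sub (dvd_refl (p : ℤ)) h2
          have h5 : (p : ℤ) - (1 * ((p : ℤ) - 1) - ((1 : ℕ) : ℤ)) = 2 := by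
            push_cast
            ring
          rwa [h5] at h6
        have := Int.le_of_dvd (by norm_num) h4
        omega
      · exact h
    have hdeg := degree_eq hpp c _ hY
    rw [hε, hdt] at hdeg
    have hqsum : (q : ℤ) ∣ ∑ χ ∈ (finite_X c).toFinset,
        c.εX χ * (charDegree (χ : G → ℂ) : ℤ) := by
      apply Finset.dvd_sum
      intro χ hχ
      have hχX : χ ∈ c.X := (Set.Finite.mem_toFinset _).mp hχ
      have hne : (χ : G → ℂ) ≠ fun _ => 1 := by
        intro h
        have h7 : χ = Cfsg.Agent.Lib.CT.ThirdMain.triv G := eq_triv χ h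
        rw [h7] at hχX
        exact (Set.disjoint_left.mp c.hdisj) hχX hY
      exact Dvd.dvd.mul_left (Int.natCast_dvd_natCast.mpr (key χ hχX hne)) _
    rw [← hdeg] at hqsum
    have h8 : (q : ℤ) ∣ 1 := by
      have h9 := dvd_neg.mpr hqsum
      simpa using h9
    have := Int.le_of_dvd one_pos h8
    have := hqp.two_le
    omega

end Cfsg.Agent.Lib.Helper81.BTONEX
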