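import Mathlib
import Cfsg.Agent.Lib.Helper80.BTStmt
import Cfsg.Agent.Lib.Helper81.BTCommon

/-!
# S0997 piece POW2B (the case `4 ∣ e`)
-/

set_option autoImplicit false
set_option linter.style.haveILetI false

namespace Cfsg.Agent.Lib.Helper81.BTPOW2B

open Cfsg
open Cfsg.Agent.Lib.Helper80.BTStmt Cfsg.Agent.Lib.Helper81.BTCommon
open Cfsg.Agent.Lib.CT.Wedderburn

universe u

theorem aux1 (p n : ℕ) (_hp : 3 ≤ p) (hn : n < 2 * p) (h : n % p = 1) : n = 1 ∨ n = p + 1 := by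
  have h1 := Nat.div_add_mod n p
  have hq : n / p < 2 := Nat.div_lt_of_lt_mul (show n < p * 2 by omega)
  rw [h] at h1
  generalize n / p = k at h1 hq
  have h01 : k = 0 ∨ k = 1 := by omega
  rcases h01 with rfl | rfl
  · left
    omega
  · right
    omega

theorem aux2 (p n : ℕ) (hn0 : 0 < n) (hn : n < 2 * p) (h : p ∣ n) : n = p := by
  obtain ⟨k, rfl⟩ := h
  have hk : k < 2 := by
    by_contra hk
    push Not at hk
    have := Nat.mul_le_mul_left p hk
    omega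
  have hk0 : k ≠ 0 := by
    rintro rfl
    simp at hn0
  have hk1 : k = 1 := by omega
  rw [hk1, mul_one]

theorem modEq_cases {G : Type u} [Group G] {p : ℕ} (c : Ctx G p) (χ : IrrCharacter G)
    (hχ : χ ∈ c.X) :
    ((charDegree (χ : G → ℂ) : ℤ) ≡ 1 [ZMOD (p : ℤ)]) ∨
      ((charDegree (χ : G → ℂ) : ℤ) ≡ -1 [ZMOD (p : ℤ)]) := by
  obtain ⟨hpm, hmod, -⟩ := c.hεX χ hχ
  rcases hpm with h | h
  · left
    rw [h] at hmod
    exact hmod
  · right
    rw [h] at hmod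
    exact hmod

theorem main (hNT1 : NT1) : POW2B.{u} := by
  intro G _ _ p b g₀ hH c hXF hYF hT hfg he
  have hH' := hH
  obtain ⟨hs, hnc, hpp, hqp, hpq, hcard, hlt⟩ := hH
  obtain ⟨hg0, hp3⟩ := three_le hH'
  obtain ⟨he1, hele⟩ := e_bounds hpp c
  have hedvd := e_dvd hpp c
  obtain ⟨⟨t, htX, ht1⟩, hXq⟩ := hXF
  obtain ⟨⟨θ, hθ⟩, hYall⟩ := hYF
  obtain ⟨hεm, hfe⟩ := hT
  obtain ⟨j, hj2, hej⟩ := he
  obtain ⟨hq2f, hfdvd, hf2, hfaith⟩ := hYall θ hθ
  have hf : charDegree (θ : G → ℂ) = g₀ := hfg θ hθ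
  have hfe' : g₀ + c.e = p := by
    rw [← hf]
    exact hfe θ hθ
  rw [hf] at hf2
  have hdeg := degree_eq' hpp hp3 c θ hθ t htX ht1
  rw [hεm, hf] at hdeg
  have hSval : ∑ χ ∈ (finite_X' c t).toFinset, c.εX χ * (charDegree (χ : G → ℂ) : ℤ) =
      -((g₀ : ℤ) + 1) := by linarith
  have h4e : 4 ∣ c.e := by
    rw [hej]
    exact pow_dvd_pow 2 hj2
  have h4p : 4 ∣ p - 1 := h4e.trans hedvd
  have hg4 : (g₀ + 1) % 4 = 2 := by omega
  have hex : ∃ χ ∈ (finite_X' c t).toFinset, ¬ 4 ∣ charDegree (χ : G → ℂ) := by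
    by_contra hcon
    push Not at hcon
    have h4S : (4 : ℤ) ∣ ∑ χ ∈ (finite_X' c t).toFinset,
        c.εX χ * (charDegree (χ : G → ℂ) : ℤ) := by
      apply Finset.dvd_sum
      intro χ hχ
      exact Dvd.dvd.mul_left (by exact_mod_cast (hcon χ hχ)) _
    rw [hSval] at h4S
    omega
  obtain ⟨χ1, hχ1mem, hχ14⟩ := hex
  obtain ⟨hχ1X, hχ1ne⟩ := (mem_X'_iff c t ht1 χ1).mp hχ1mem
  have hχ1even : 2 ∣ charDegree (χ1 : G → ℂ) := hXq χ1 hχ1X hχ1ne
  obtain ⟨d, hd⟩ := hχ1even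
  have hdodd : ¬ 2 ∣ d := by
    intro h
    obtain ⟨d', rfl⟩ := h
    apply hχ14
    rw [hd]
    exact ⟨d', by ring⟩
  have hmod1 := modEq_cases c χ1 hχ1X
  have hnp1 := not_dvd_of_modEq hpp hmod1
  have hdg : d ∣ g₀ := by
    have hdvd := Cfsg.Agent.Lib.Helper80.Integrality.charDegree_dvd_card χ1
    rw [hcard, hd] at hdvd
    have hcp : Nat.Coprime (2 * d) p :=
      Nat.Coprime.symm ((Nat.Prime.coprime_iff_not_dvd hpp).mpr (by rw [← hd]; exact hnp1))
    have h1 : 2 * d ∣ 2 ^ b * g₀ := by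
      rw [mul_assoc] at hdvd
      exact hcp.dvd_of_dvd_mul_left hdvd
    have h2 : d ∣ 2 ^ b * g₀ := (Dvd.intro_left 2 rfl).trans h1
    have hcd : Nat.Coprime d (2 ^ b) :=
      Nat.Coprime.pow_right b
        (Nat.Coprime.symm ((Nat.Prime.coprime_iff_not_dvd Nat.prime_two).mpr hdodd))
    exact hcd.dvd_of_dvd_mul_left h2
  have hdpos : 0 < d := by
    have := irr_charDegree_pos χ1.2
    rw [hd] at this
    omega
  have hdle : d ≤ g₀ := Nat.le_of_dvd (by omega) hdg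
  have h2d : 2 * d = p + 1 := by
    rw [hd] at hmod1
    rcases hmod1 with h | h
    · have h2 : ((2 * d : ℕ) : ℤ) ≡ ((1 : ℕ) : ℤ) [ZMOD (p : ℤ)] := by
        rw [Nat.cast_one]
        exact h
      have h3 : 2 * d ≡ 1 [MOD p] := Int.natCast_modEq_iff.mp h2
      have h4 : (2 * d) % p = 1 := by
        have h5 : (2 * d) % p = 1 % p := h3
        rw [Nat.mod_eq_of_lt (by omega : 1 < p)] at h5
        exact h5
      rcases aux1 p (2 * d) hp3 (by omega) h4 with h6 | h6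
      · omega
      · exact h6
    · exfalso
      have h2 : (p : ℤ) ∣ ((2 * d : ℕ) : ℤ) - (-1) := h.symm.dvd
      have h3 : ((2 * d : ℕ) : ℤ) - (-1) = ((2 * d + 1 : ℕ) : ℤ) := by
        push_cast
        ring
      rw [h3] at h2
      have h4 : p ∣ 2 * d + 1 := Int.natCast_dvd_natCast.mp h2
      have h5 := aux2 p (2 * d + 1) (by omega) (by omega) h4
      obtain ⟨v, hv⟩ := h4p
      exact hdodd ⟨v, by omega⟩
  have hgd : g₀ = d := by
    obtain ⟨k, hk⟩ := hdg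
    have hk2 : k < 2 := by
      by_contra hk2
      push Not at hk2
      have := Nat.mul_le_mul_left d hk2
      omega
    have hk0 : k ≠ 0 := by
      rintro rfl
      rw [mul_zero] at hk
      omega
    have hk1 : k = 1 := by omega
    rw [hk, hk1, mul_one]
  have hpe : p = 2 * c.e + 1 := by omega
  have hpk : p = 2 ^ (j + 1) + 1 := by
    rw [pow_succ, ← hej]
    omega
  have hg0j : g₀ = 2 ^ j + 1 := by
    rw [← hej]
    omega
  refine ⟨⟨j + 1, hpk⟩, ?_⟩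
  by_contra hcon
  push Not at hcon
  have hall : ∀ χ ∈ (finite_X' c t).toFinset, 2 * g₀ ∣ charDegree (χ : G → ℂ) := by
    intro χ hχ
    obtain ⟨hχX, hχne⟩ := (mem_X'_iff c t ht1 χ).mp hχ
    have hev : 2 ∣ charDegree (χ : G → ℂ) := hXq χ hχX hχne
    have hpos := irr_charDegree_pos χ.2
    obtain ⟨a, d', hd'odd, hdeq⟩ := Nat.exists_eq_two_pow_mul_odd hpos.ne'
    have ha1 : 1 ≤ a := by
      by_contra ha
      have ha0 : a = 0 := by omega
      rw [ha0, pow_zero, one_mul] at hdeq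
      rw [hdeq] at hev
      exact (Nat.not_even_iff_odd.mpr hd'odd) (even_iff_two_dvd.mpr hev)
    have hmod := modEq_cases c χ hχX
    have hnp := not_dvd_of_modEq hpp hmod
    have hd'2 : ¬ 2 ∣ d' := fun h => (Nat.not_even_iff_odd.mpr hd'odd) (even_iff_two_dvd.mpr h)
    have hd'g : d' ∣ g₀ := by
      have hdvd := Cfsg.Agent.Lib.Helper80.Integrality.charDegree_dvd_card χ
      rw [hcard, hdeq] at hdvd
      have hcp : Nat.Coprime (2 ^ a * d') p :=
        Nat.Coprime.symm ((Nat.Prime.coprime_iff_not_dvd hpp).mpr (by rw [← hdeq]; exact hnp))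
      have h1 : 2 ^ a * d' ∣ 2 ^ b * g₀ := by
        rw [mul_assoc] at hdvd
        exact hcp.dvd_of_dvd_mul_left hdvd
      have h2 : d' ∣ 2 ^ b * g₀ := (Dvd.intro_left (2 ^ a) rfl).trans h1
      have hcd : Nat.Coprime d' (2 ^ b) :=
        Nat.Coprime.pow_right b
          (Nat.Coprime.symm ((Nat.Prime.coprime_iff_not_dvd Nat.prime_two).mpr hd'2))
      exact hcd.dvd_of_dvd_mul_left h2
    have hnt := hNT1 j a d' (by rw [← hg0j]; exact hd'g) (by
      rw [← hpk, ← hdeq]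
      exact hmod)
    rcases hnt with h | h
    · exfalso
      exact hcon χ hχX hχne a ha1 (by rw [hdeq, h, mul_one])
    · rw [hdeq, h, ← hg0j]
      obtain ⟨a', rfl⟩ : ∃ a', a = a' + 1 := ⟨a - 1, by omega⟩
      exact ⟨2 ^ a', by ring⟩
  have h2gS : ((2 * g₀ : ℕ) : ℤ) ∣ ∑ χ ∈ (finite_X' c t).toFinset,
      c.εX χ * (charDegree (χ : G → ℂ) : ℤ) := by
    apply Finset.dvd_sum
    intro χ hχ
    exact Dvd.dvd.mul_left (Int.natCast_dvd_natCast.mpr (hall χ hχ)) _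
  rw [hSval] at h2gS
  have h3 : 2 * g₀ ∣ g₀ + 1 := by
    have h4 := dvd_neg.mp h2gS
    have h5 : ((2 * g₀ : ℕ) : ℤ) ∣ ((g₀ + 1 : ℕ) : ℤ) := by
      push_cast
      push_cast at h4
      exact h4
    exact Int.natCast_dvd_natCast.mp h5
  have := Nat.le_of_dvd (by omega) h3
  omega

end Cfsg.Agent.Lib.Helper81.BTPOW2B
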