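import Mathlib
import Cfsg.Agent.Lib.Helper80.BTStmt
import Cfsg.Agent.Lib.Helper81.BTCommon

/-!
# S0997 piece YFACTS
-/

set_option autoImplicit false
set_option linter.style.haveILetI false

namespace Cfsg.Agent.Lib.Helper81.BTYFACTS

open Cfsg
open Cfsg.Agent.Lib.Helper80.BTStmt Cfsg.Agent.Lib.Helper81.BTCommon
open Cfsg.Agent.Lib.CT.Wedderburn

universe u

theorem main : YFACTS.{u} := by
  intro G _ _ p q b g₀ hH c hXF
  have hH' := hH
  obtain ⟨hs, hnc, hpp, hqp, hpq, hcard, hlt⟩ := hH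
  obtain ⟨hg0, hp3⟩ := three_le hH'
  obtain ⟨he1, hele⟩ := e_bounds hpp c
  obtain ⟨⟨t, htX, ht1⟩, hXq⟩ := hXF
  have hYne : c.Y.Nonempty := by
    by_contra hne
    rw [Set.not_nonempty_iff_eq_empty] at hne
    have hcard0 : Nat.card c.Y = 0 := by rw [hne]; simp
    rw [c.hY] at hcard0
    have h2 : 1 ≤ (p - 1) / c.e := (Nat.one_le_div_iff (by omega)).mpr hele
    omega
  refine ⟨hYne, ?_⟩
  intro θ hθ
  have hθne : (θ : G → ℂ) ≠ fun _ => 1 := by
    intro h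
    have h2 : θ = t := Subtype.ext (h.trans ht1.symm)
    rw [h2] at hθ
    exact (Set.disjoint_left.mp c.hdisj) htX hθ
  have hfpos : 0 < charDegree (θ : G → ℂ) := irr_charDegree_pos θ.2
  have hdeg := degree_eq' hpp hp3 c θ hθ t htX ht1
  have hqsum : (q : ℤ) ∣ ∑ χ ∈ (finite_X' c t).toFinset,
      c.εX χ * (charDegree (χ : G → ℂ) : ℤ) := by
    apply Finset.dvd_sum
    intro χ hχ
    rw [mem_X'_iff c t ht1] at hχ
    exact Dvd.dvd.mul_left (Int.natCast_dvd_natCast.mpr (hXq χ hχ.1 hχ.2)) _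
  have hqf : ¬ q ∣ charDegree (θ : G → ℂ) := by
    intro hq
    have hq' : (q : ℤ) ∣ c.ε * (charDegree (θ : G → ℂ) : ℤ) :=
      Dvd.dvd.mul_left (Int.natCast_dvd_natCast.mpr hq) _
    rw [hdeg] at hq'
    have h1 : (q : ℤ) ∣ 1 := (dvd_add_left hqsum).mp hq'
    have h2 := Int.le_of_dvd one_pos h1
    have h3 := hqp.two_le
    omega
  have hpf : ¬ p ∣ charDegree (θ : G → ℂ) := by
    intro hp
    have hmod := c.hYdeg θ hθ
    have h1 : (p : ℤ) ∣ c.ε * (c.e : ℤ) := by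
      have h2 : (p : ℤ) ∣ c.ε * (c.e : ℤ) - (charDegree (θ : G → ℂ) : ℤ) := hmod.dvd
      have h3 : (p : ℤ) ∣ (charDegree (θ : G → ℂ) : ℤ) := Int.natCast_dvd_natCast.mpr hp
      have h4 := dvd_add h2 h3
      simpa using h4
    have h4 : (p : ℤ) ∣ (c.e : ℤ) := by
      rcases c.hε with h | h
      · rw [h, one_mul] at h1; exact h1
      · rw [h] at h1
        have h5 := dvd_neg.mpr h1
        simpa using h5
    have h5 : p ∣ c.e := Int.natCast_dvd_natCast.mp h4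
    have h6 := Nat.le_of_dvd (by omega) h5
    omega
  have hfg : charDegree (θ : G → ℂ) ∣ g₀ := deg_dvd_g0 hH' θ hpf hqf
  have hf2 : 2 ≤ charDegree (θ : G → ℂ) := by
    by_contra hlt2
    have hf1 : charDegree (θ : G → ℂ) = 1 := by omega
    exact hθne (linear_trivial hs hnc θ hf1)
  exact ⟨hqf, hfg, hf2, fun g hg => faithful_of_simple hs θ hθne g hg⟩

end Cfsg.Agent.Lib.Helper81.BTYFACTS
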