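import Cfsg.Agent.Lib.Helper80.S4705Stmt
import Cfsg.Agent.Lib.Helper80.Core
import Cfsg.Agent.Lib.CT.Wedderburn

/-!
# S4705 piece DET: central elements have order dividing the degree, in a perfect group
-/

set_option autoImplicit false
set_option linter.style.haveILetI false
set_option linter.unusedSectionVars false

namespace Cfsg.Agent.Lib.Helper81.FTDET

open Cfsg
open Cfsg.Agent.Lib.Helper80.S4705Stmt
open scoped ComplexConjugate

universe u

theorem main : Det.{u} := by
  intro G _ _ ζ hperf hirr hfaith z hz
  obtain ⟨n, ρ, hρ, rfl⟩ := hirr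
  haveI := hρ
  have hdeg : charDegree ρ.character = n := by
    apply Cfsg.Agent.Lib.CT.Wedderburn.charDegree_eq_of_apply_one
    rw [Representation.char_one]
    simp
  rw [hdeg]
  -- the determinant
  let d : G →* ℂ := (LinearMap.det : Module.End ℂ (Fin n → ℂ) →* ℂ).comp ρ
  have hker : (MonoidHom.toHomUnits d).ker = ⊤ := by
    apply top_le_iff.1
    rw [← hperf]
    exact Abelianization.commutator_subset_ker _
  have hd : ∀ g : G, d g = 1 := by
    intro g
    have h1 : g ∈ (MonoidHom.toHomUnits d).ker := by
      rw [hker]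
      exact Subgroup.mem_top g
    have h2 := congrArg Units.val (MonoidHom.mem_ker.1 h1)
    simpa using h2
  obtain ⟨c, hc1, hc, -⟩ := Cfsg.Agent.Lib.Helper80.Core.exists_scalar_of_mem_center ρ z hz
  have hcn : c ^ n = 1 := by
    have h1 := hd z
    have h2 : d z = LinearMap.det (ρ z) := rfl
    rw [h2, hc, LinearMap.det_smul] at h1
    simpa using h1
  apply hfaith
  show LinearMap.trace ℂ _ (ρ (z ^ n)) = LinearMap.trace ℂ _ (ρ 1)
  rw [map_pow, hc, smul_pow, one_pow, hcn, one_smul, map_one ρ]

end Cfsg.Agent.Lib.Helper81.FTDET
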