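import Cfsg.Agent.Lib.Helper80.S4705Stmt
import Cfsg.Agent.Lib.CT.Ops
import Cfsg.Agent.Lib.CT.Clifford
import Cfsg.Agent.Lib.CT.Wedderburn

/-!
# Sums of a character over a subgroup (helpers for S4705 pieces P1, E2, ORDR)
-/

set_option autoImplicit false
set_option linter.style.haveILetI false
set_option linter.unusedSectionVars false

namespace Cfsg.Agent.Lib.Helper81.FTRestr

open Cfsg
open scoped ComplexConjugate

universe u

variable {G : Type u} [Group G]

/-- the sum of a character over a subgroup is `|H|` times a natural number -/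
theorem sum_restrict_nat (H : Subgroup G) [Fintype H] {χ : G → ℂ} (hχ : IsCharacter G χ) :
    ∃ m : ℕ, ∑ h : H, χ (h : G) = (Nat.card H : ℂ) * m := by
  obtain ⟨m, hm⟩ := Cfsg.Agent.Lib.CT.Clifford.classInner_char_nat
    (Cfsg.Agent.Lib.CT.Ops.isCharacter_restrict H hχ)
    (Cfsg.Agent.Lib.CT.Ops.isCharacter_one (G := H))
  refine ⟨m, ?_⟩
  unfold classInner at hm
  have hc : (Nat.card H : ℂ) ≠ 0 := Nat.cast_ne_zero.2 Nat.card_pos.ne'
  rw [← hm, ← mul_assoc, mul_inv_cancel₀ hc, one_mul]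
  refine Finset.sum_congr rfl fun h _ => ?_
  simp

/-- the sum of the squared norm of a character over a subgroup is `|H|` times a natural
number -/
theorem sum_restrict_sq_nat (H : Subgroup G) [Fintype H] {χ : G → ℂ} (hχ : IsCharacter G χ) :
    ∃ m : ℕ, ∑ h : H, χ (h : G) * conj (χ (h : G)) = (Nat.card H : ℂ) * m := by
  obtain ⟨m, hm⟩ := Cfsg.Agent.Lib.CT.Clifford.classInner_char_nat
    (Cfsg.Agent.Lib.CT.Ops.isCharacter_restrict H hχ)
    (Cfsg.Agent.Lib.CT.Ops.isCharacter_restrict H hχ)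
  refine ⟨m, ?_⟩
  unfold classInner at hm
  have hc : (Nat.card H : ℂ) ≠ 0 := Nat.cast_ne_zero.2 Nat.card_pos.ne'
  rw [← hm, ← mul_assoc, mul_inv_cancel₀ hc, one_mul]

end Cfsg.Agent.Lib.Helper81.FTRestr
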