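import Cfsg.Agent.Lib.Helper80.S4705Stmt
import Cfsg.Agent.Lib.Helper81.FTRestr

/-!
# S4705 piece E2: the order of a Sylow `2`-subgroup divides `p - 1`
-/

set_option autoImplicit false
set_option linter.style.haveILetI false
set_option linter.unusedSectionVars false

namespace Cfsg.Agent.Lib.Helper81.FTE2

open Cfsg
open Cfsg.Agent.Lib.Helper80.S4705Stmt
open scoped ComplexConjugate

universe u

theorem main : E2.{u} := by
  intro G _ _ p _ P ζ hHyp hinv hno4 E
  classical
  obtain ⟨hp5, hPcard, hPnn, hirr, hfaith, hdeg⟩ := hHyp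
  haveI : Fintype ↥(E : Subgroup G) := Fintype.ofFinite _
  have hζchar : IsCharacter G ζ := Cfsg.Agent.Lib.CT.Wedderburn.isCharacter_of_irr hirr
  have hζ1 : ζ 1 = (p : ℂ) - 2 := by
    rw [← Cfsg.Agent.Lib.CT.Wedderburn.char_natCast_charDegree hζchar, hdeg,
      Nat.cast_sub (by omega)]
    norm_num
  -- every non-identity element of `E` is an involution
  have hord : ∀ e : ↥(E : Subgroup G), e ≠ 1 → orderOf (e : G) = 2 := by
    intro e he
    obtain ⟨k, hk⟩ := (E.isPGroup' : IsPGroup 2 ↥(E : Subgroup G)) e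
    have hk' : (e : G) ^ 2 ^ k = 1 := by
      have := congrArg Subtype.val hk
      simpa using this
    have h1 : orderOf (e : G) ∣ 2 ^ k := orderOf_dvd_of_pow_eq_one hk'
    obtain ⟨j, hj, hj2⟩ := (Nat.dvd_prime_pow Nat.prime_two).1 h1
    rcases Nat.lt_or_ge j 2 with hlt | hge
    · rcases Nat.eq_zero_or_pos j with h0 | h0
      · exfalso
        apply he
        rw [h0, pow_zero, orderOf_eq_one_iff] at hj2
        exact Subtype.ext hj2
      · have : j = 1 := by omega
        rw [hj2, this, pow_one]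
    · exfalso
      have h4 : 4 ∣ orderOf (e : G) := by
        rw [hj2]
        exact pow_dvd_pow 2 hge
      exact hno4 _ (orderOf_pow_orderOf_div (orderOf_pos (e : G)).ne' h4)
  obtain ⟨m, hm⟩ := Cfsg.Agent.Lib.Helper81.FTRestr.sum_restrict_nat (E : Subgroup G) hζchar
  have hterm : ∀ e : ↥(E : Subgroup G),
      ζ (e : G) = (if e = 1 then ((p : ℂ) - 1) else 0) - 1 := by
    intro e
    by_cases he : e = 1
    · rw [if_pos he, he]
      show ζ 1 = _
      rw [hζ1]
      ring
    · rw [if_neg he, hinv _ (hord e he)]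
      ring
  rw [Finset.sum_congr rfl (fun e _ => hterm e), Finset.sum_sub_distrib,
    Finset.sum_ite_eq' Finset.univ (1 : ↥(E : Subgroup G)) (fun _ => (p : ℂ) - 1),
    if_pos (Finset.mem_univ _), Finset.sum_const, Finset.card_univ, nsmul_eq_mul, mul_one,
    ← Nat.card_eq_fintype_card] at hm
  have hnat : p - 1 = Nat.card ↥(E : Subgroup G) * (m + 1) := by
    have h : ((p - 1 : ℕ) : ℂ) = ((Nat.card ↥(E : Subgroup G) * (m + 1) : ℕ) : ℂ) := by
      rw [Nat.cast_sub (by omega)]
      push_cast
      linear_combination hm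
    exact_mod_cast h
  exact Dvd.intro _ hnat.symm

end Cfsg.Agent.Lib.Helper81.FTE2
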