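import Cfsg.Agent.Lib.Helper80.S4705Stmt
import Cfsg.Agent.Lib.Helper80.Core
import Cfsg.Agent.Lib.CT.Wedderburn

/-!
# S4705 piece LAMIP: the inner product of the exterior square with a difference of Galois
conjugates
-/

set_option autoImplicit false
set_option linter.style.haveILetI false
set_option linter.unusedSectionVars false

namespace Cfsg.Agent.Lib.Helper81.FTLAMIP

open Cfsg
open Cfsg.Agent.Lib.Helper80.S4705Stmt
open scoped ComplexConjugate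

universe u

/-- a central element multiplies the values of an irreducible character by a scalar of norm
one -/
theorem exists_central_scalar {G : Type u} [Group G] [Finite G] {χ : G → ℂ}
    (h : IsIrrCharacter G χ) {z : G} (hz : z ∈ Subgroup.center G) :
    ∃ c : ℂ, ‖c‖ = 1 ∧ ∀ g, χ (g * z) = c * χ g := by
  obtain ⟨n, ρ, hirr, rfl⟩ := h
  haveI := hirr
  obtain ⟨c, hc1, hc2, -⟩ := Cfsg.Agent.Lib.Helper80.Core.exists_scalar_of_mem_center ρ z hz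
  refine ⟨c, hc1, fun g => ?_⟩
  unfold Representation.character
  rw [map_mul, hc2]
  simp

theorem isClassFunction_of_irr {G : Type u} [Group G] {χ : G → ℂ} (h : IsIrrCharacter G χ) :
    IsClassFunction G χ := by
  obtain ⟨n, ρ, -, rfl⟩ := h
  intro g k
  exact Representation.char_conj ρ g k

section sums

variable {Q : Type u} [Group Q] [Fintype Q] (p : ℕ) [Fact p.Prime] (hQ : Nat.card Q = p)
  (ψ : Q →* ℂˣ) (hψ : ψ ≠ 1)

include hQ hψ in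
theorem sum_pow_zero (k : ℕ) (hk : ¬ p ∣ k) : ∑ x : Q, ((ψ x : ℂˣ) : ℂ) ^ k = 0 := by
  have hp : p.Prime := Fact.out
  have hcop : (Nat.card Q).Coprime k := by
    rw [hQ]
    exact (Nat.Prime.coprime_iff_not_dvd hp).2 hk
  have h1 : ∑ x : Q, ((ψ x : ℂˣ) : ℂ) ^ k = ∑ x : Q, ((ψ (powCoprime hcop x) : ℂˣ) : ℂ) := by
    apply Finset.sum_congr rfl
    intro x _
    rw [powCoprime_apply, map_pow, Units.val_pow_eq_pow_val]
  rw [h1, Equiv.sum_comp (powCoprime hcop) (fun x => ((ψ x : ℂˣ) : ℂ))]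
  have hf : ((Units.coeHom ℂ).comp ψ) ≠ 1 := by
    intro h
    apply hψ
    ext x
    have := DFunLike.congr_fun h x
    simpa using this
  exact sum_hom_units_eq_zero ((Units.coeHom ℂ).comp ψ) hf

include hQ hψ in
theorem sum_inv_pow_zero (k : ℕ) (hk : ¬ p ∣ k) :
    ∑ x : Q, (((ψ x)⁻¹ : ℂˣ) : ℂ) ^ k = 0 := by
  have h := sum_pow_zero p hQ ψ⁻¹ (by
    intro h
    apply hψ
    have h2 : ψ = ψ⁻¹⁻¹ := (inv_inv ψ).symm
    rw [h2, h]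
    ext x
    simp) k hk
  exact h

include hQ in
theorem unit_pow_card (x : Q) : ((ψ x : ℂˣ) : ℂ) ^ p = 1 := by
  rw [← Units.val_pow_eq_pow_val, ← map_pow, ← hQ, pow_card_eq_one', map_one, Units.val_one]

include hQ in
theorem pow_ne_one_of_not_dvd (x : Q) (hx : x ≠ 1) (k : ℕ) (hk : ¬ p ∣ k) : x ^ k ≠ 1 := by
  have hp : p.Prime := Fact.out
  intro h
  have h1 : orderOf x ∣ k := orderOf_dvd_of_pow_eq_one h
  have h2 : orderOf x ∣ p := by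
    rw [← hQ]
    exact orderOf_dvd_natCard x
  rcases (Nat.dvd_prime hp).1 h2 with h3 | h3
  · exact hx (orderOf_eq_one_iff.1 h3)
  · rw [h3] at h1
    exact hk h1

/-- the polynomial expression for the values on `P` -/
noncomputable def E (ψ : Q →* ℂˣ) (j : ℕ) (x : Q) : ℂ :=
  (((ψ x : ℂˣ) : ℂ) ^ 2 + (((ψ x)⁻¹ : ℂˣ) : ℂ) ^ 2 + 1) *
    (((ψ x : ℂˣ) : ℂ) ^ 2 + (((ψ x)⁻¹ : ℂˣ) : ℂ) ^ 2 - ((ψ x : ℂˣ) : ℂ) ^ j -
      (((ψ x)⁻¹ : ℂˣ) : ℂ) ^ j)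

theorem E_one (j : ℕ) : E ψ j 1 = 0 := by
  unfold E
  simp

include hQ hψ in
theorem sum_E (hp5 : 5 < p) (j : ℕ) (hj : ¬ p ∣ j) (hj2 : ¬ p ∣ j + 2)
    (hjp : ¬ p ∣ j + (p - 2)) : ∑ x : Q, E ψ j x = 2 * (p : ℂ) := by
  have hp : p.Prime := Fact.out
  have hpt : ∀ x : Q, E ψ j x =
      ((ψ x : ℂˣ) : ℂ) ^ 4 + (((ψ x)⁻¹ : ℂˣ) : ℂ) ^ 4 + ((ψ x : ℂˣ) : ℂ) ^ 2 +
        (((ψ x)⁻¹ : ℂˣ) : ℂ) ^ 2 + 2 -
      (((ψ x : ℂˣ) : ℂ) ^ (j + 2) + (((ψ x)⁻¹ : ℂˣ) : ℂ) ^ (j + 2) +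
        ((ψ x : ℂˣ) : ℂ) ^ (j + (p - 2)) + (((ψ x)⁻¹ : ℂˣ) : ℂ) ^ (j + (p - 2)) +
        ((ψ x : ℂˣ) : ℂ) ^ j + (((ψ x)⁻¹ : ℂˣ) : ℂ) ^ j) := by
    intro x
    unfold E
    have h1 : ((ψ x : ℂˣ) : ℂ) * (((ψ x)⁻¹ : ℂˣ) : ℂ) = 1 := by
      rw [← Units.val_mul, mul_inv_cancel, Units.val_one]
    have hap : ((ψ x : ℂˣ) : ℂ) ^ p = 1 := unit_pow_card p hQ ψ x
    have hap' : (((ψ x)⁻¹ : ℂˣ) : ℂ) ^ p = 1 := by
      have := unit_pow_card p hQ ψ⁻¹ x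
      exact this
    have hp2 : p - 2 + 2 = p := by omega
    have h2 : (((ψ x)⁻¹ : ℂˣ) : ℂ) ^ 2 = ((ψ x : ℂˣ) : ℂ) ^ (p - 2) := by
      have e1 : ((ψ x : ℂˣ) : ℂ) ^ (p - 2) * ((ψ x : ℂˣ) : ℂ) ^ 2 = 1 := by
        rw [← pow_add, hp2, hap]
      calc (((ψ x)⁻¹ : ℂˣ) : ℂ) ^ 2
          = (((ψ x)⁻¹ : ℂˣ) : ℂ) ^ 2 * (((ψ x : ℂˣ) : ℂ) ^ (p - 2) * ((ψ x : ℂˣ) : ℂ) ^ 2) := by
            rw [e1, mul_one]
        _ = ((ψ x : ℂˣ) : ℂ) ^ (p - 2) *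
              (((ψ x : ℂˣ) : ℂ) * (((ψ x)⁻¹ : ℂˣ) : ℂ)) ^ 2 := by ring
        _ = ((ψ x : ℂˣ) : ℂ) ^ (p - 2) := by rw [h1, one_pow, mul_one]
    have h3 : ((ψ x : ℂˣ) : ℂ) ^ 2 = (((ψ x)⁻¹ : ℂˣ) : ℂ) ^ (p - 2) := by
      have e1 : (((ψ x)⁻¹ : ℂˣ) : ℂ) ^ (p - 2) * (((ψ x)⁻¹ : ℂˣ) : ℂ) ^ 2 = 1 := by
        rw [← pow_add, hp2, hap']
      calc ((ψ x : ℂˣ) : ℂ) ^ 2
          = ((ψ x : ℂˣ) : ℂ) ^ 2 *
              ((((ψ x)⁻¹ : ℂˣ) : ℂ) ^ (p - 2) * (((ψ x)⁻¹ : ℂˣ) : ℂ) ^ 2) := by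
            rw [e1, mul_one]
        _ = (((ψ x)⁻¹ : ℂˣ) : ℂ) ^ (p - 2) *
              (((ψ x : ℂˣ) : ℂ) * (((ψ x)⁻¹ : ℂˣ) : ℂ)) ^ 2 := by ring
        _ = (((ψ x)⁻¹ : ℂˣ) : ℂ) ^ (p - 2) := by rw [h1, one_pow, mul_one]
    rw [pow_add _ j (p - 2), pow_add _ j (p - 2), ← h2, ← h3, pow_add _ j 2, pow_add _ j 2]
    linear_combination (2 * (((ψ x : ℂˣ) : ℂ) * (((ψ x)⁻¹ : ℂˣ) : ℂ) + 1)) * h1
  rw [Finset.sum_congr rfl (fun x _ => hpt x)]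
  simp only [Finset.sum_sub_distrib, Finset.sum_add_distrib]
  have n4 : ¬ p ∣ 4 := by
    intro h
    have := Nat.le_of_dvd (by norm_num) h
    omega
  have n2 : ¬ p ∣ 2 := by
    intro h
    have := Nat.le_of_dvd (by norm_num) h
    omega
  rw [sum_pow_zero p hQ ψ hψ 4 n4, sum_inv_pow_zero p hQ ψ hψ 4 n4,
    sum_pow_zero p hQ ψ hψ 2 n2, sum_inv_pow_zero p hQ ψ hψ 2 n2,
    sum_pow_zero p hQ ψ hψ (j + 2) hj2, sum_inv_pow_zero p hQ ψ hψ (j + 2) hj2,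
    sum_pow_zero p hQ ψ hψ (j + (p - 2)) hjp, sum_inv_pow_zero p hQ ψ hψ (j + (p - 2)) hjp,
    sum_pow_zero p hQ ψ hψ j hj, sum_inv_pow_zero p hQ ψ hψ j hj]
  rw [Finset.sum_const, Finset.card_univ, ← Nat.card_eq_fintype_card, hQ]
  simp
  ring

end sums

theorem conj_unit_of_pow {a a' : ℂ} (h1 : a * a' = 1) {n : ℕ} (hn : n ≠ 0) (ha : a ^ n = 1) :
    conj a = a' := by
  have hnorm : ‖a‖ = 1 := Complex.norm_eq_one_of_pow_eq_one ha hn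
  have h2 : a * conj a = 1 := by
    rw [Complex.mul_conj, Complex.normSq_eq_norm_sq, hnorm]
    simp
  calc conj a = (a' * a) * conj a := by rw [mul_comm a' a, h1, one_mul]
    _ = a' * (a * conj a) := by ring
    _ = a' := by rw [h2, mul_one]

theorem main : LamIP.{u} := by
  intro G _ _ p _ P ζ hyp hval hsing hZp b b' j hbb' hZb hPb hPb' hj hj2 hjp
  classical
  obtain ⟨hp5, hPcard, hPnn, hirr, hfaith, hdeg⟩ := hyp
  obtain ⟨ψ, hψ, hζ⟩ := hval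
  have hp : p.Prime := Fact.out
  have hcf : IsClassFunction G ζ := isClassFunction_of_irr hirr
  set F : G → ℂ := fun g => (ζ g ^ 2 - ζ (g ^ 2)) / 2 * conj (ζ (g ^ b') - ζ (g ^ b)) with hF
  have hFcf : IsClassFunction G F := by
    intro g h
    have e : ∀ k : ℕ, (h * g * h⁻¹) ^ k = h * g ^ k * h⁻¹ := fun k => conj_pow
    simp only [hF]
    rw [e 2, e b', e b, hcf g h, hcf (g ^ 2) h, hcf (g ^ b') h, hcf (g ^ b) h]
  have hFreg : ∀ g : G, ¬ p ∣ orderOf g → F g = 0 := by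
    intro g hg
    simp only [hF]
    rw [hbb' g hg, sub_self, map_zero, mul_zero]
  have hS := hsing F hFcf hFreg
  have hdiff : classInner (fun g : G => (ζ g ^ 2 - ζ (g ^ 2)) / 2) (fun g : G => ζ (g ^ b')) -
      classInner (fun g : G => (ζ g ^ 2 - ζ (g ^ 2)) / 2) (fun g : G => ζ (g ^ b)) =
      (Nat.card G : ℂ)⁻¹ * ∑ g : G, F g := by
    unfold classInner
    rw [← mul_sub, ← Finset.sum_sub_distrib]
    congr 1
    apply Finset.sum_congr rfl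
    intro g _
    simp only [hF]
    rw [map_sub, mul_sub]
  rw [hdiff]
  haveI : Fintype ↥(P : Subgroup G) := Fintype.ofFinite _
  haveI : Fintype ↥(Subgroup.center G) := Fintype.ofFinite _
  -- values on `x z`
  have hpt : ∀ (x : ↥(P : Subgroup G)) (z : ↥(Subgroup.center G)),
      (if x = 1 then 0 else F ((x : G) * (z : G))) = E ψ j x := by
    intro x z
    by_cases hx : x = 1
    · rw [if_pos hx, hx, E_one]
    rw [if_neg hx]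
    obtain ⟨c, hc1, hc⟩ := exists_central_scalar hirr z.2
    have hcc : c * conj c = 1 := by
      rw [Complex.mul_conj, Complex.normSq_eq_norm_sq, hc1]
      simp
    have hcomm : Commute (x : G) (z : G) := Subgroup.mem_center_iff.1 z.2 (x : G)
    have hzreg : ¬ p ∣ orderOf (z : G) := hZp _ z.2
    have hz2 : (z : G) ^ b = (z : G) ^ 2 := hZb _ z.2
    have hz2' : (z : G) ^ b' = (z : G) ^ 2 := by rw [hbb' _ hzreg, hz2]
    have hsq : ∀ y : G, ζ (y * (z : G) ^ 2) = c * (c * ζ y) := by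
      intro y
      rw [pow_two, ← mul_assoc, hc, hc]
    have e1 : ζ ((x : G) * (z : G)) = c * ζ (x : G) := hc _
    have e2 : ζ (((x : G) * (z : G)) ^ 2) = c * (c * ζ ((x : G) ^ 2)) := by
      rw [hcomm.mul_pow, hsq]
    have e3 : ζ (((x : G) * (z : G)) ^ b') = c * (c * ζ ((x : G) ^ j)) := by
      rw [hcomm.mul_pow, hz2', hPb' _ x.2, hsq]
    have e4 : ζ (((x : G) * (z : G)) ^ b) = c * (c * ζ ((x : G) ^ 2)) := by
      rw [hcomm.mul_pow, hz2, hPb _ x.2, hsq]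
    -- the values of ζ on x, x^2, x^j
    have hx2 : x ^ 2 ≠ 1 := pow_ne_one_of_not_dvd p hPcard x hx 2 (by
      intro h
      have := Nat.le_of_dvd (by norm_num) h
      omega)
    have hxj : x ^ j ≠ 1 := pow_ne_one_of_not_dvd p hPcard x hx j hj
    have v1 := hζ x hx
    have v2 := hζ (x ^ 2) hx2
    have v3 := hζ (x ^ j) hxj
    rw [Subgroup.coe_pow] at v2 v3
    rw [map_pow, ← inv_pow, Units.val_pow_eq_pow_val, Units.val_pow_eq_pow_val] at v2 v3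
    have ha1 : ((ψ x : ℂˣ) : ℂ) * (((ψ x)⁻¹ : ℂˣ) : ℂ) = 1 := by
      rw [← Units.val_mul, mul_inv_cancel, Units.val_one]
    have hap : ((ψ x : ℂˣ) : ℂ) ^ p = 1 := unit_pow_card p hPcard ψ x
    have hap' : (((ψ x)⁻¹ : ℂˣ) : ℂ) ^ p = 1 := unit_pow_card p hPcard ψ⁻¹ x
    have hca : conj ((ψ x : ℂˣ) : ℂ) = (((ψ x)⁻¹ : ℂˣ) : ℂ) :=
      conj_unit_of_pow ha1 hp.ne_zero hap
    have hca' : conj (((ψ x)⁻¹ : ℂˣ) : ℂ) = ((ψ x : ℂˣ) : ℂ) :=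
      conj_unit_of_pow (by rw [mul_comm]; exact ha1) hp.ne_zero hap'
    simp only [hF]
    rw [e1, e2, e3, e4, v1, v2, v3]
    unfold E
    simp only [map_sub, map_mul, map_neg, map_add, map_pow, hca, hca']
    have key : ∀ (c cb a a' aj a'j : ℂ), c * cb = 1 → a * a' = 1 →
        ((c * -(a + a')) ^ 2 - c * (c * -(a ^ 2 + a' ^ 2))) / 2 *
          (cb * (cb * -(a'j + aj)) - cb * (cb * -(a' ^ 2 + a ^ 2))) =
        (a ^ 2 + a' ^ 2 + 1) * (a ^ 2 + a' ^ 2 - aj - a'j) := by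
      intro c cb a a' aj a'j hu hv
      linear_combination (a ^ 2 + a' ^ 2 - aj - a'j) * (c * cb + 1) * (a ^ 2 + a' ^ 2 + a * a') * hu +
        (a ^ 2 + a' ^ 2 - aj - a'j) * hv
    linear_combination key c (conj c) ((ψ x : ℂˣ) : ℂ) (((ψ x)⁻¹ : ℂˣ) : ℂ)
      (((ψ x : ℂˣ) : ℂ) ^ j) ((((ψ x)⁻¹ : ℂˣ) : ℂ) ^ j) hcc ha1
  have hrhs : ∑ᶠ x : ↥(P : Subgroup G), ∑ᶠ z : ↥(Subgroup.center G),
      (if x = 1 then 0 else F ((x : G) * (z : G))) =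
      (Nat.card ↥(Subgroup.center G) : ℂ) * (2 * (p : ℂ)) := by
    rw [finsum_eq_sum_of_fintype]
    have h1 : ∀ x : ↥(P : Subgroup G), ∑ᶠ z : ↥(Subgroup.center G),
        (if x = 1 then 0 else F ((x : G) * (z : G))) =
        (Nat.card ↥(Subgroup.center G) : ℂ) * E ψ j x := by
      intro x
      rw [finsum_eq_sum_of_fintype, Finset.sum_congr rfl (fun z _ => hpt x z), Finset.sum_const,
        Finset.card_univ, ← Nat.card_eq_fintype_card, nsmul_eq_mul]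
    rw [Finset.sum_congr rfl (fun x _ => h1 x), ← Finset.mul_sum,
      sum_E p hPcard ψ hψ hp5 j hj hj2 hjp]
  rw [hrhs, finsum_eq_sum_of_fintype] at hS
  have hZne : (Nat.card ↥(Subgroup.center G) : ℂ) ≠ 0 := Nat.cast_ne_zero.2 Nat.card_pos.ne'
  have hpne : (p : ℂ) ≠ 0 := Nat.cast_ne_zero.2 hp.ne_zero
  have hne : (2 * (p : ℂ) * (Nat.card ↥(Subgroup.center G) : ℂ)) ≠ 0 :=
    mul_ne_zero (mul_ne_zero two_ne_zero hpne) hZne
  have hG : (Nat.card G : ℂ) ≠ 0 := Nat.cast_ne_zero.2 Nat.card_pos.ne'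
  have hsum : ∑ g : G, F g = (Nat.card G : ℂ) := by
    apply mul_left_cancel₀ hne
    rw [hS]
    ring
  rw [hsum, inv_mul_cancel₀ hG]

end Cfsg.Agent.Lib.Helper81.FTLAMIP
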