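import Cfsg.Agent.Lib.Helper80.S4705Stmt
import Cfsg.Agent.Lib.Helper81.FTRestr
import Cfsg.Agent.Lib.CT.Kernel

/-!
# S4705 piece ORDR: Sylow subgroups for odd primes `r ≠ p`
-/

set_option autoImplicit false
set_option linter.style.haveILetI false
set_option linter.unusedSectionVars false

namespace Cfsg.Agent.Lib.Helper81.FTORDR

open Cfsg
open Cfsg.Agent.Lib.Helper80.S4705Stmt
open scoped ComplexConjugate

universe u

theorem main : OrdR.{u} := by
  intro G _ _ p _ P ζ hHyp hvan r _ hr2 hrp R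
  classical
  obtain ⟨hp5, hPcard, hPnn, hirr, hfaith, hdeg⟩ := hHyp
  have hp : p.Prime := Fact.out
  have hr : r.Prime := Fact.out
  haveI : Fintype ↥(R : Subgroup G) := Fintype.ofFinite _
  have hζchar : IsCharacter G ζ := Cfsg.Agent.Lib.CT.Wedderburn.isCharacter_of_irr hirr
  have hζ1 : ζ 1 = ((p - 2 : ℕ) : ℂ) := by
    rw [← Cfsg.Agent.Lib.CT.Wedderburn.char_natCast_charDegree hζchar, hdeg]
  obtain ⟨m, hm⟩ := Cfsg.Agent.Lib.Helper81.FTRestr.sum_restrict_sq_nat (R : Subgroup G) hζchar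
  have hterm : ∀ h : ↥(R : Subgroup G), ζ (h : G) * conj (ζ (h : G)) =
      if (h : G) ∈ Subgroup.center G then (((p - 2) ^ 2 : ℕ) : ℂ) else 0 := by
    intro h
    by_cases hz : (h : G) ∈ Subgroup.center G
    · rw [if_pos hz]
      have h1 := (Cfsg.Agent.Lib.CT.Kernel.norm_eq_iff_mem_center hirr hfaith (h : G)).2 hz
      rw [Complex.mul_conj, Complex.normSq_eq_norm_sq, h1, hζ1]
      push_cast
      simp
    · rw [if_neg hz]
      obtain ⟨k, hk⟩ := (R.isPGroup' : IsPGroup r ↥(R : Subgroup G)) h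
      have hk' : (h : G) ^ r ^ k = 1 := by
        have := congrArg Subtype.val hk
        simpa using this
      have h1 : orderOf (h : G) ∣ r ^ k := orderOf_dvd_of_pow_eq_one hk'
      obtain ⟨j, hj, hj2⟩ := (Nat.dvd_prime_pow hr).1 h1
      have hodd : Odd (orderOf (h : G)) := by
        rw [hj2]
        exact (hr.odd_of_ne_two hr2).pow
      have hreg : ¬ p ∣ orderOf (h : G) := by
        rw [hj2]
        intro hd
        have h2 := hp.dvd_of_dvd_pow hd
        exact hrp ((Nat.prime_dvd_prime_iff_eq hp hr).1 h2).symm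
      rw [hvan _ hreg hodd hz, zero_mul]
  rw [Finset.sum_congr rfl (fun h _ => hterm h), Finset.sum_ite, Finset.sum_const_zero, add_zero,
    Finset.sum_const, nsmul_eq_mul] at hm
  have e : {h : ↥(R : Subgroup G) // (h : G) ∈ Subgroup.center G} ≃
      ↥((R : Subgroup G) ⊓ Subgroup.center G) :=
    { toFun := fun h => ⟨h.1.1, ⟨h.1.2, h.2⟩⟩
      invFun := fun x => ⟨⟨x.1, x.2.1⟩, x.2.2⟩
      left_inv := fun h => rfl
      right_inv := fun x => rfl }
  have hcard : (Finset.univ.filter (fun h : ↥(R : Subgroup G) =>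
      (h : G) ∈ Subgroup.center G)).card = Nat.card ↥((R : Subgroup G) ⊓ Subgroup.center G) := by
    rw [← Nat.card_congr e, Nat.card_eq_fintype_card, Fintype.card_subtype]
  rw [hcard] at hm
  have hnat : Nat.card ↥((R : Subgroup G) ⊓ Subgroup.center G) * (p - 2) ^ 2 =
      Nat.card ↥(R : Subgroup G) * m := by
    exact_mod_cast hm
  show Nat.card ↥(R : Subgroup G) ∣ (p - 2) ^ 2 * Nat.card ↥((R : Subgroup G) ⊓ Subgroup.center G)
  rw [mul_comm, hnat]
  exact Dvd.intro _ rfl

end Cfsg.Agent.Lib.Helper81.FTORDR
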