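import Cfsg.Agent.Lib.Helper80.S4705Stmt
import Cfsg.Agent.Lib.Helper81.FTRestr

/-!
# S4705 piece P1: involutions have value `-1` and there are no elements of order `4`
-/

set_option autoImplicit false
set_option linter.style.haveILetI false
set_option linter.unusedSectionVars false

namespace Cfsg.Agent.Lib.Helper81.FTP1

open Cfsg
open Cfsg.Agent.Lib.Helper80.S4705Stmt
open scoped ComplexConjugate

universe u

/-- the integer contradiction -/
theorem no_int_sol (q Y : ℤ) (hq : 7 ≤ q) (h : Y * (2 * (q - 3) - Y) = 4) : False := by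
  have hYpos : 0 < Y := by
    rcases le_or_gt Y 0 with h0 | h0
    · have : Y * (2 * (q - 3) - Y) ≤ 0 := mul_nonpos_of_nonpos_of_nonneg h0 (by linarith)
      linarith
    · exact h0
  have hW : 0 < 2 * (q - 3) - Y := by
    by_contra hh
    push Not at hh
    have := mul_nonpos_of_nonneg_of_nonpos (le_of_lt hYpos) hh
    linarith
  have hY4 : Y ≤ 4 := by nlinarith
  interval_cases Y <;> omega

theorem main : P1.{u} := by
  intro G _ _ p _ P ζ hHyp hStar
  classical
  obtain ⟨hp5, hPcard, hPnn, hirr, hfaith, hdeg⟩ := hHyp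
  have hp : p.Prime := Fact.out
  have hζchar : IsCharacter G ζ := Cfsg.Agent.Lib.CT.Wedderburn.isCharacter_of_irr hirr
  have hζ1 : ζ 1 = (p : ℂ) - 2 := by
    rw [← Cfsg.Agent.Lib.CT.Wedderburn.char_natCast_charDegree hζchar, hdeg,
      Nat.cast_sub (by omega)]
    norm_num
  have hp7 : 7 ≤ p := by
    rcases Nat.lt_or_ge p 7 with h | h
    · exfalso
      have h6 : p = 6 := by omega
      rw [h6] at hp
      exact absurd hp (by decide)
    · exact h
  have hinv : ∀ g : G, orderOf g = 2 → ζ g = -1 := by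
    intro g hg
    have h1 := hStar g 1 (by rw [hg, pow_one])
    have hg2 : g ^ 2 = 1 := by
      rw [← hg]
      exact pow_orderOf_eq_one g
    rw [hg2, hζ1] at h1
    have h2 : (ζ g + 1) * (ζ g - ((p : ℂ) - 2)) = 0 := by linear_combination h1
    rcases mul_eq_zero.1 h2 with h | h
    · linear_combination h
    · exfalso
      have h3 : ζ g = ζ 1 := by
        rw [hζ1]
        linear_combination h
      have h4 := hfaith g h3
      rw [h4, orderOf_one] at hg
      omega
  refine ⟨hinv, ?_⟩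
  intro g hg4
  have hg2 : orderOf (g ^ 2) = 2 := by
    rw [orderOf_pow' g (by norm_num), hg4]
    norm_num
  have h1 := hStar g 2 (by rw [hg4]; norm_num)
  rw [hinv _ hg2] at h1
  haveI : Fintype ↥(Subgroup.zpowers g) := Fintype.ofFinite _
  obtain ⟨m, hm⟩ := Cfsg.Agent.Lib.Helper81.FTRestr.sum_restrict_nat (Subgroup.zpowers g) hζchar
  have hsum : ∑ h : ↥(Subgroup.zpowers g), ζ (h : G) = ζ 1 + ζ g + ζ (g ^ 2) + ζ (g ^ 3) := by
    have hfin : IsOfFinOrder g := isOfFinOrder_of_finite g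
    rw [← Equiv.sum_comp (finEquivZPowers hfin) (fun h => ζ (h : G))]
    simp only [finEquivZPowers_apply]
    rw [Fin.sum_univ_eq_sum_range (fun i => ζ (g ^ i)) (orderOf g), hg4]
    simp [Finset.sum_range_succ]
  have hg3 : g ^ 3 = g⁻¹ := by
    have h4 : g ^ 4 = 1 := by
      rw [← hg4]
      exact pow_orderOf_eq_one g
    rw [eq_inv_iff_mul_eq_one, ← pow_succ]
    exact h4
  rw [hsum, hg3, Cfsg.Agent.Lib.CT.Wedderburn.char_apply_inv hζchar, hinv _ hg2, hζ1,
    Nat.card_zpowers, hg4] at hm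
  -- real and imaginary parts
  obtain ⟨x, y, hxy⟩ : ∃ x y : ℝ, ζ g = (x : ℂ) + (y : ℂ) * Complex.I :=
    ⟨(ζ g).re, (ζ g).im, (Complex.re_add_im _).symm⟩
  rw [hxy] at h1 hm
  have hre : x ^ 2 - y ^ 2 + 1 = ((p : ℝ) - 3) * x := by
    have := congrArg Complex.re h1
    simp [pow_two] at this
    linarith
  have him : 2 * x * y = ((p : ℝ) - 3) * y := by
    have := congrArg Complex.im h1
    simp [pow_two] at this
    linarith
  have hsumre : ((p : ℝ) - 3) + 2 * x = 4 * (m : ℝ) := by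
    have := congrArg Complex.re hm
    simp at this
    linarith
  have hpR : (7 : ℝ) ≤ (p : ℝ) := by exact_mod_cast hp7
  have hy : y * (2 * x - ((p : ℝ) - 3)) = 0 := by linarith
  rcases mul_eq_zero.1 hy with hy0 | hx2
  · -- `y = 0`
    rw [hy0] at hre
    have hY : ((4 * (m : ℤ) - ((p : ℤ) - 3) : ℤ) : ℝ) = 2 * x := by
      push_cast
      linarith
    apply no_int_sol (p : ℤ) (4 * (m : ℤ) - ((p : ℤ) - 3)) (by exact_mod_cast hp7)
    have hR : ((((4 * (m : ℤ) - ((p : ℤ) - 3)) * (2 * ((p : ℤ) - 3) -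
        (4 * (m : ℤ) - ((p : ℤ) - 3))) : ℤ)) : ℝ) = ((4 : ℤ) : ℝ) := by
      rw [Int.cast_mul, Int.cast_sub (2 * ((p : ℤ) - 3)), hY]
      push_cast
      nlinarith
    exact_mod_cast hR
  · -- `2 x = p - 3`
    have hx : x = ((p : ℝ) - 3) / 2 := by linarith
    nlinarith [sq_nonneg y]

end Cfsg.Agent.Lib.Helper81.FTP1
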