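import Cfsg.Agent.Lib.Helper80.S4705Stmt
import Cfsg.Agent.Lib.CT.Kernel
import Cfsg.Agent.Lib.CT.Wedderburn

/-!
# S4705 piece P2: vanishing on non-central `p`-regular elements of odd order
-/

set_option autoImplicit false
set_option linter.style.haveILetI false
set_option linter.unusedSectionVars false

namespace Cfsg.Agent.Lib.Helper81.FTP2

open Cfsg
open Cfsg.Agent.Lib.Helper80.S4705Stmt
open scoped ComplexConjugate

universe u

theorem main : P2.{u} := by
  intro G _ _ p _ P ζ hHyp hStar g hg hodd hgZ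
  obtain ⟨hp5, hPcard, hPnn, hirr, hfaith, hdeg⟩ := hHyp
  have hp : p.Prime := Fact.out
  have hζchar : IsCharacter G ζ := Cfsg.Agent.Lib.CT.Wedderburn.isCharacter_of_irr hirr
  have hζ1 : ζ 1 = (p : ℂ) - 2 := by
    rw [← Cfsg.Agent.Lib.CT.Wedderburn.char_natCast_charDegree hζchar, hdeg,
      Nat.cast_sub (by omega)]
    norm_num
  set d : ℂ := (p : ℂ) - 2 with hd
  have hpR : (7 : ℝ) ≤ (p : ℝ) := by exact_mod_cast (show 7 ≤ p by
    rcases Nat.lt_or_ge p 7 with h | h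
    · exfalso
      have h6 : p = 6 := by omega
      rw [h6] at hp
      exact absurd hp (by decide)
    · exact h)
  have hdR : d = (((p : ℝ) - 2 : ℝ) : ℂ) := by
    rw [hd]
    push_cast
    ring
  have hd0 : d ≠ 0 := by
    rw [hdR]
    exact_mod_cast (show ((p : ℝ) - 2) ≠ 0 by linarith)
  have hdnorm : ‖d‖ = (p : ℝ) - 2 := by
    rw [hdR, Complex.norm_real, Real.norm_eq_abs, abs_of_nonneg (by linarith)]
  -- powers
  have hpow : ∀ k : ℕ, ¬ p ∣ orderOf (g ^ k) ∧ Odd (orderOf (g ^ k)) := by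
    intro k
    have h1 : orderOf (g ^ k) ∣ orderOf g := orderOf_pow_dvd k
    exact ⟨fun h => hg (dvd_trans h h1), Odd.of_dvd_nat hodd h1⟩
  have hclaim : ∀ k : ℕ, ζ (g ^ (2 ^ k)) / d = (ζ g / d) ^ (2 ^ k) := by
    intro k
    induction k with
    | zero => simp
    | succ k ih =>
      have h1 := hStar (g ^ (2 ^ k)) (hpow _).1 (hpow _).2
      have h2 : g ^ (2 ^ (k + 1)) = (g ^ (2 ^ k)) ^ 2 := by
        rw [← pow_mul, pow_succ]
      have h1' : ζ (g ^ 2 ^ k) ^ 2 = d * ζ ((g ^ 2 ^ k) ^ 2) := h1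
      have h3 : (ζ g / d) ^ (2 ^ (k + 1)) = ((ζ g / d) ^ (2 ^ k)) ^ 2 := by
        rw [← pow_mul, pow_succ]
      rw [h2, h3, ← ih, div_pow, h1']
      field_simp
  -- `2 ^ m ≡ 1` modulo the order
  set n := orderOf g with hn
  have hn1 : n ≠ 1 := by
    intro h
    apply hgZ
    rw [orderOf_eq_one_iff.1 h]
    exact Subgroup.one_mem _
  have hnpos : 0 < n := orderOf_pos g
  have hcop : Nat.Coprime 2 n := Nat.coprime_two_left.mpr hodd
  have hm := Nat.ModEq.pow_totient hcop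
  have hmpos : 0 < Nat.totient n := Nat.totient_pos.2 hnpos
  have hgm : g ^ (2 ^ Nat.totient n) = g := by
    have : g ^ (2 ^ Nat.totient n) = g ^ 1 := by
      rw [pow_eq_pow_iff_modEq]
      exact hm
    rw [this, pow_one]
  set a : ℂ := ζ g / d with ha
  have haN : a ^ (2 ^ Nat.totient n) = a := by
    rw [← hclaim, hgm]
  have hr : ‖a‖ ^ (2 ^ Nat.totient n) = ‖a‖ := by
    rw [← norm_pow, haN]
  have h2le : 2 ≤ 2 ^ Nat.totient n := by
    calc 2 = 2 ^ 1 := by norm_num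
      _ ≤ 2 ^ Nat.totient n := Nat.pow_le_pow_right (by norm_num) hmpos
  rcases eq_or_ne ‖a‖ 0 with h0 | h0
  · have ha0 : a = 0 := norm_eq_zero.1 h0
    rw [ha, div_eq_zero_iff] at ha0
    rcases ha0 with h | h
    · exact h
    · exact absurd h hd0
  · exfalso
    obtain ⟨N, hN⟩ : ∃ N, 2 ^ Nat.totient n = N + 1 := ⟨2 ^ Nat.totient n - 1, by omega⟩
    rw [hN, pow_succ] at hr
    have h1 : ‖a‖ ^ N = 1 := by
      have : ‖a‖ ^ N * ‖a‖ = 1 * ‖a‖ := by rw [hr, one_mul]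
      exact mul_right_cancel₀ h0 this
    have h2 : ‖a‖ = 1 := (pow_eq_one_iff_of_nonneg (norm_nonneg a) (by omega)).1 h1
    apply hgZ
    rw [← Cfsg.Agent.Lib.CT.Kernel.norm_eq_iff_mem_center hirr hfaith g]
    rw [ha, norm_div, hdnorm] at h2
    have h3 : ‖ζ g‖ = (p : ℝ) - 2 := by
      have hne : ((p : ℝ) - 2) ≠ 0 := by linarith
      field_simp at h2
      exact h2
    rw [h3, hζ1, hdR]
    simp

end Cfsg.Agent.Lib.Helper81.FTP2
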