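import Cfsg.Agent.Lib.Helper80.S4705Stmt

/-!
# S4705 piece SING: the class-sum formula for class functions vanishing on `p`-regular elements
-/

set_option autoImplicit false
set_option linter.style.haveILetI false
set_option linter.unusedSectionVars false

namespace Cfsg.Agent.Lib.Helper81.FTSING

open Cfsg
open Cfsg.Agent.Lib.Helper80.S4705Stmt
open scoped ComplexConjugate Pointwise

universe u

variable {G : Type u} [Group G]

theorem orderOf_conj' (k g : G) : orderOf (k * g * k⁻¹) = orderOf g := by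
  have := orderOf_injective (MulAut.conj k).toMonoidHom (MulAut.conj k).injective g
  simpa [MulAut.conj_apply] using this

section

variable [Finite G] (p : ℕ) [Fact p.Prime] (P : Sylow p G) (hPcard : Nat.card P = p)

include hPcard in
/-- every element of `P` is a power of a given non-identity element -/
theorem exists_zpow (x : G) (hx : x ∈ (P : Subgroup G)) (hx1 : x ≠ 1) (q : G)
    (hq : q ∈ (P : Subgroup G)) : ∃ i : ℤ, x ^ i = q := by
  have hx1' : (⟨x, hx⟩ : ↥(P : Subgroup G)) ≠ 1 := fun h => hx1 (congrArg Subtype.val h)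
  have h := zpowers_eq_top_of_prime_card (G := ↥(P : Subgroup G)) hPcard hx1'
  have hmem : (⟨q, hq⟩ : ↥(P : Subgroup G)) ∈ Subgroup.zpowers (⟨x, hx⟩ : ↥(P : Subgroup G)) := by
    rw [h]
    exact Subgroup.mem_top _
  obtain ⟨i, hi⟩ := Subgroup.mem_zpowers_iff.1 hmem
  refine ⟨i, ?_⟩
  have := congrArg Subtype.val hi
  simpa using this

include hPcard in
theorem pow_p_eq_one (x : G) (hx : x ∈ (P : Subgroup G)) : x ^ p = 1 := by
  have h : (⟨x, hx⟩ : ↥(P : Subgroup G)) ^ p = 1 := by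
    have h0 := pow_card_eq_one' (G := ↥(P : Subgroup G)) (x := ⟨x, hx⟩)
    have hc : Nat.card ↥(P : Subgroup G) = p := hPcard
    rw [hc] at h0
    exact h0
  have := congrArg Subtype.val h
  simpa using this

include hPcard in
/-- a `p`-singular element is conjugate to `x z` with `1 ≠ x ∈ P` and `z` central -/
theorem exists_triple (hloc : LocG G p P) (g : G) (hg : p ∣ orderOf g) :
    ∃ (k x z : G), x ∈ (P : Subgroup G) ∧ x ≠ 1 ∧ z ∈ Subgroup.center G ∧
      k * x * z * k⁻¹ = g := by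
  have hp : p.Prime := Fact.out
  have hord : orderOf g ≠ 0 := (orderOf_pos g).ne'
  set u : G := g ^ (orderOf g / p) with hu
  have huo : orderOf u = p := orderOf_pow_orderOf_div hord hg
  have hu1 : u ≠ 1 := by
    intro h
    rw [h, orderOf_one] at huo
    exact hp.one_lt.ne huo
  have hpg : IsPGroup p ↥(Subgroup.zpowers u) := by
    apply IsPGroup.of_card (n := 1)
    rw [pow_one, Nat.card_zpowers, huo]
  obtain ⟨Q, hQ⟩ := hpg.exists_le_sylow
  obtain ⟨k, hk⟩ := MulAction.exists_smul_eq G P Q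
  have hu' : k⁻¹ * u * k ∈ (P : Subgroup G) := by
    have h : u ∈ (Q : Subgroup G) := hQ (Subgroup.mem_zpowers u)
    subst hk
    rw [Sylow.smul_def, Sylow.pointwise_smul_def] at h
    rw [Subgroup.mem_pointwise_smul_iff_inv_smul_mem] at h
    have : (MulAut.conj k)⁻¹ • u = k⁻¹ * u * k := by
      rw [← map_inv, MulAut.smul_def, MulAut.conj_apply, inv_inv]
    rw [this] at h
    exact h
  have hu'1 : k⁻¹ * u * k ≠ 1 := by
    intro h
    apply hu1
    have : u = k * (k⁻¹ * u * k) * k⁻¹ := by group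
    rw [this, h]
    group
  -- `k⁻¹ g k` centralizes `P`
  have hcomm : Commute (k⁻¹ * g * k) (k⁻¹ * u * k) := by
    have h1 : Commute g u := (Commute.refl g).pow_right _
    have e1 : (k⁻¹ * g * k) * (k⁻¹ * u * k) = k⁻¹ * (g * u) * k := by group
    have e2 : (k⁻¹ * u * k) * (k⁻¹ * g * k) = k⁻¹ * (u * g) * k := by group
    show (k⁻¹ * g * k) * (k⁻¹ * u * k) = (k⁻¹ * u * k) * (k⁻¹ * g * k)
    rw [e1, e2, h1.eq]
  have hcent : ∀ x ∈ (P : Subgroup G), (k⁻¹ * g * k) * x = x * (k⁻¹ * g * k) := by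
    intro x hx
    obtain ⟨i, rfl⟩ := exists_zpow p P hPcard _ hu' hu'1 x hx
    exact (hcomm.zpow_right i).eq
  obtain ⟨x₀, hx₀, z₀, hz₀, hxz⟩ := hloc.1 _ hcent
  refine ⟨k, x₀, z₀, hx₀, ?_, hz₀, ?_⟩
  · rintro rfl
    rw [one_mul] at hxz
    have h1 : ¬ p ∣ orderOf (k⁻¹ * g * k) := by
      rw [hxz]
      exact hloc.2.1 z₀ hz₀
    have h2 : orderOf (k⁻¹ * g * k) = orderOf g := by
      have := orderOf_conj' k⁻¹ g
      rwa [inv_inv] at this
    rw [h2] at h1
    exact h1 hg
  · rw [mul_assoc k, ← hxz]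
    group

include hPcard in
/-- comparing two representations `h x z h⁻¹` -/
theorem triple_unique (hloc : LocG G p P) (n x z x' z' : G) (hx : x ∈ (P : Subgroup G))
    (hx1 : x ≠ 1) (hz : z ∈ Subgroup.center G) (hx' : x' ∈ (P : Subgroup G)) (hx'1 : x' ≠ 1)
    (hz' : z' ∈ Subgroup.center G) (h : n * (x * z) * n⁻¹ = x' * z') :
    z = z' ∧ n * x * n⁻¹ = x' ∧ n ∈ Subgroup.normalizer ((P : Subgroup G) : Set G) := by
  have hp : p.Prime := Fact.out
  have hzc : ∀ a : G, a * z = z * a := Subgroup.mem_center_iff.1 hz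
  have hz'c : ∀ a : G, a * z' = z' * a := Subgroup.mem_center_iff.1 hz'
  have h1 : n * x * n⁻¹ * z = x' * z' := by
    rw [← h]
    have : n * (x * z) * n⁻¹ = n * x * (z * n⁻¹) := by group
    rw [this, ← hzc n⁻¹]
    group
  have hyp : (n * x * n⁻¹) ^ p = 1 := by
    rw [conj_pow, pow_p_eq_one p P hPcard x hx]
    group
  have hx'p : x' ^ p = 1 := pow_p_eq_one p P hPcard x' hx'
  have h2 : z ^ p = z' ^ p := by
    have e1 : (n * x * n⁻¹ * z) ^ p = z ^ p := by
      rw [(show Commute (n * x * n⁻¹) z from hzc _).mul_pow, hyp, one_mul]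
    have e2 : (x' * z') ^ p = z' ^ p := by
      rw [(show Commute x' z' from hz'c _).mul_pow, hx'p, one_mul]
    rw [← e1, ← e2, h1]
  have hw : (z' * z⁻¹) ^ p = 1 := by
    have hc : Commute z' z⁻¹ := (show Commute z' z from (hzc z')).inv_right
    rw [hc.mul_pow, inv_pow, ← h2, mul_inv_cancel]
  have hwZ : z' * z⁻¹ ∈ Subgroup.center G :=
    (Subgroup.center G).mul_mem hz' ((Subgroup.center G).inv_mem hz)
  have hw1 : z' * z⁻¹ = 1 := by
    have hd : orderOf (z' * z⁻¹) ∣ p := orderOf_dvd_of_pow_eq_one hw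
    rcases (Nat.dvd_prime hp).1 hd with h3 | h3
    · exact orderOf_eq_one_iff.1 h3
    · exfalso
      apply hloc.2.1 _ hwZ
      rw [h3]
  have hzz : z = z' := by
    have : z' = z' * z⁻¹ * z := by group
    rw [this, hw1, one_mul]
  have hxx : n * x * n⁻¹ = x' := by
    rw [hzz] at h1
    exact mul_right_cancel h1
  refine ⟨hzz, hxx, ?_⟩
  rw [Subgroup.mem_normalizer_iff]
  have hfwd : ∀ q ∈ (P : Subgroup G), n * q * n⁻¹ ∈ (P : Subgroup G) := by
    intro q hq
    obtain ⟨i, rfl⟩ := exists_zpow p P hPcard x hx hx1 q hq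
    have e : n * x ^ i * n⁻¹ = (n * x * n⁻¹) ^ i := by
      rw [conj_zpow]
    rw [e, hxx]
    exact (P : Subgroup G).zpow_mem hx' i
  have hbwd : ∀ q ∈ (P : Subgroup G), n⁻¹ * q * n ∈ (P : Subgroup G) := by
    intro q hq
    obtain ⟨i, rfl⟩ := exists_zpow p P hPcard x' hx' hx'1 q hq
    have e0 : n⁻¹ * x' * n = x := by
      rw [← hxx]
      group
    have e : n⁻¹ * x' ^ i * n = (n⁻¹ * x' * n) ^ i := by
      have := conj_zpow (a := n⁻¹) (b := x') (i := i)
      rw [inv_inv] at this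
      exact this.symm
    rw [e, e0]
    exact (P : Subgroup G).zpow_mem hx i
  intro q
  constructor
  · exact hfwd q
  · intro hq
    have := hbwd _ hq
    have e : n⁻¹ * (n * q * n⁻¹) * n = q := by group
    rwa [e] at this

include hPcard in
/-- the number of triples over a `p`-singular element -/
theorem fiber_card (hloc : LocG G p P) (g : G) (hg : p ∣ orderOf g) :
    Nat.card {t : G × ↥(P : Subgroup G) × ↥(Subgroup.center G) //
      t.2.1 ≠ 1 ∧ t.1 * ((t.2.1 : G) * (t.2.2 : G)) * t.1⁻¹ = g} =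
    Nat.card ↥(Subgroup.normalizer ((P : Subgroup G) : Set G)) := by
  obtain ⟨k, x₀, z₀, hx₀, hx₀1, hz₀, hk⟩ := exists_triple p P hPcard hloc g hg
  symm
  have hmemN : ∀ n : ↥(Subgroup.normalizer ((P : Subgroup G) : Set G)),
      (n : G)⁻¹ * x₀ * (n : G) ∈ (P : Subgroup G) := by
    intro n
    have h1 := (Subgroup.mem_normalizer_iff.1 (Subgroup.inv_mem _ n.2) x₀).1 hx₀
    rwa [inv_inv] at h1
  let Φ : ↥(Subgroup.normalizer ((P : Subgroup G) : Set G)) →
      {t : G × ↥(P : Subgroup G) × ↥(Subgroup.center G) //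
        t.2.1 ≠ 1 ∧ t.1 * ((t.2.1 : G) * (t.2.2 : G)) * t.1⁻¹ = g} := fun n =>
    ⟨(k * (n : G), ⟨(n : G)⁻¹ * x₀ * (n : G), hmemN n⟩, ⟨z₀, hz₀⟩), by
      constructor
      · intro h
        apply hx₀1
        have h1 : (n : G)⁻¹ * x₀ * (n : G) = 1 := congrArg Subtype.val h
        have : x₀ = (n : G) * ((n : G)⁻¹ * x₀ * (n : G)) * (n : G)⁻¹ := by group
        rw [this, h1]
        group
      · show k * (n : G) * ((n : G)⁻¹ * x₀ * (n : G) * z₀) * (k * (n : G))⁻¹ = g
        rw [← hk]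
        have hzc : (n : G) * z₀ = z₀ * (n : G) := Subgroup.mem_center_iff.1 hz₀ _
        have e : k * (n : G) * ((n : G)⁻¹ * x₀ * (n : G) * z₀) * (k * (n : G))⁻¹ =
            k * x₀ * ((n : G) * z₀) * (n : G)⁻¹ * k⁻¹ := by group
        rw [e, hzc]
        group⟩
  apply Nat.card_eq_of_bijective Φ
  constructor
  · intro n m hnm
    have h1 : k * (n : G) = k * (m : G) := congrArg (fun t => t.1.1) hnm
    exact Subtype.ext (mul_left_cancel h1)
  · rintro ⟨⟨h, x, z⟩, hx1, hxz⟩
    have hx1' : (x : G) ≠ 1 := fun h' => hx1 (Subtype.ext h')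
    have heq : (k⁻¹ * h) * ((x : G) * (z : G)) * (k⁻¹ * h)⁻¹ = x₀ * z₀ := by
      have e : (k⁻¹ * h) * ((x : G) * (z : G)) * (k⁻¹ * h)⁻¹ =
          k⁻¹ * (h * ((x : G) * (z : G)) * h⁻¹) * k := by group
      rw [e]
      show k⁻¹ * (h * ((x : G) * (z : G)) * h⁻¹) * k = x₀ * z₀
      rw [hxz, ← hk]
      group
    obtain ⟨hzz, hxx, hnN⟩ := triple_unique p P hPcard hloc (k⁻¹ * h) x z x₀ z₀ x.2 hx1' z.2
      hx₀ hx₀1 hz₀ heq
    refine ⟨⟨k⁻¹ * h, hnN⟩, ?_⟩
    apply Subtype.ext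
    show (k * (k⁻¹ * h), (⟨(k⁻¹ * h)⁻¹ * x₀ * (k⁻¹ * h), _⟩ : ↥(P : Subgroup G)),
      (⟨z₀, hz₀⟩ : ↥(Subgroup.center G))) = (h, x, z)
    refine Prod.ext ?_ (Prod.ext ?_ ?_)
    · show k * (k⁻¹ * h) = h
      group
    · apply Subtype.ext
      show (k⁻¹ * h)⁻¹ * x₀ * (k⁻¹ * h) = (x : G)
      rw [← hxx]
      group
    · apply Subtype.ext
      show z₀ = (z : G)
      exact hzz.symm

end

open Classical in
theorem main : Sing.{u} := by
  intro G _ _ p _ P hp2 hPcard _ hloc F hFcf hFreg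
  haveI : Fintype G := Fintype.ofFinite G
  haveI : Fintype ↥(P : Subgroup G) := Fintype.ofFinite _
  haveI : Fintype ↥(Subgroup.center G) := Fintype.ofFinite _
  haveI : Fintype ↥(Subgroup.normalizer ((P : Subgroup G) : Set G)) := Fintype.ofFinite _
  simp only [finsum_eq_sum_of_fintype]
  -- the double sum
  set S : ℂ := ∑ t : G × ↥(P : Subgroup G) × ↥(Subgroup.center G),
    if t.2.1 = 1 then 0 else F (t.1 * ((t.2.1 : G) * (t.2.2 : G)) * t.1⁻¹) with hS
  have h1 : S = (Nat.card G : ℂ) * ∑ x : ↥(P : Subgroup G), ∑ z : ↥(Subgroup.center G),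
      if x = 1 then 0 else F ((x : G) * (z : G)) := by
    rw [hS, Fintype.sum_prod_type]
    have : ∀ h : G, (∑ y : ↥(P : Subgroup G) × ↥(Subgroup.center G),
        if y.1 = 1 then (0 : ℂ) else F (h * ((y.1 : G) * (y.2 : G)) * h⁻¹)) =
        ∑ x : ↥(P : Subgroup G), ∑ z : ↥(Subgroup.center G),
          if x = 1 then 0 else F ((x : G) * (z : G)) := by
      intro h
      rw [Fintype.sum_prod_type]
      refine Finset.sum_congr rfl fun x _ => Finset.sum_congr rfl fun z _ => ?_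
      by_cases hx : x = 1
      · simp [hx]
      · simp only [if_neg hx]
        exact hFcf _ h
    rw [Finset.sum_congr rfl fun h _ => this h, Finset.sum_const, Finset.card_univ,
      nsmul_eq_mul, Nat.card_eq_fintype_card]
  have h2 : S = (2 * (p : ℂ) * (Nat.card ↥(Subgroup.center G) : ℂ)) * ∑ g : G, F g := by
    have e1 : S = ∑ t : G × ↥(P : Subgroup G) × ↥(Subgroup.center G), ∑ g : G,
        if (t.2.1 ≠ 1 ∧ t.1 * ((t.2.1 : G) * (t.2.2 : G)) * t.1⁻¹ = g) then F g else 0 := by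
      rw [hS]
      refine Finset.sum_congr rfl fun t _ => ?_
      by_cases hx : t.2.1 = 1
      · rw [if_pos hx]
        symm
        apply Finset.sum_eq_zero
        intro g _
        rw [if_neg]
        exact fun h => h.1 hx
      · rw [if_neg hx]
        have : ∀ g : G, (if (t.2.1 ≠ 1 ∧ t.1 * ((t.2.1 : G) * (t.2.2 : G)) * t.1⁻¹ = g)
            then F g else 0) =
            if t.1 * ((t.2.1 : G) * (t.2.2 : G)) * t.1⁻¹ = g then F g else 0 := by
          intro g
          by_cases hg : t.1 * ((t.2.1 : G) * (t.2.2 : G)) * t.1⁻¹ = g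
          · rw [if_pos ⟨hx, hg⟩, if_pos hg]
          · rw [if_neg (fun h => hg h.2), if_neg hg]
        rw [Finset.sum_congr rfl fun g _ => this g, Finset.sum_ite_eq]
        simp
    rw [e1, Finset.sum_comm, Finset.mul_sum]
    refine Finset.sum_congr rfl fun g _ => ?_
    rw [Finset.sum_ite, Finset.sum_const_zero, add_zero, Finset.sum_const, nsmul_eq_mul]
    by_cases hg : p ∣ orderOf g
    · have hc := fiber_card p P hPcard hloc g hg
      rw [hloc.2.2, Nat.card_eq_fintype_card, Fintype.card_subtype] at hc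
      rw [hc]
      push_cast
      ring
    · rw [hFreg g hg, mul_zero, mul_zero]
  rw [← h2, h1]

end Cfsg.Agent.Lib.Helper81.FTSING
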