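import Cfsg.Agent.Lib.Helper80.S4705Stmt
import Cfsg.Agent.Lib.Helper81.FTLAMIP
import Cfsg.Agent.Lib.Helper76.GaloisConj
import Cfsg.Agent.Lib.Helper67.BrL24
import Cfsg.Agent.Lib.CT.Clifford
import Cfsg.Agent.Lib.CT.Wedderburn

/-!
# S4705 piece STAR: the exterior square of `ζ` is a sum of Galois conjugates of `ζ`
-/

set_option autoImplicit false
set_option linter.style.haveILetI false
set_option linter.unusedSectionVars false

namespace Cfsg.Agent.Lib.Helper81.FTSTAR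

open Cfsg
open Cfsg.Agent.Lib.Helper80.S4705Stmt
open scoped ComplexConjugate

universe u

/-- `a + a⁻¹ = b + b⁻¹` forces `a b = 1` or `a = b` -/
theorem eq_or_of_sum_inv (a a' b b' : ℂ) (ha : a * a' = 1) (hb : b * b' = 1)
    (h : a + a' = b + b') : a * b = 1 ∨ a = b := by
  have h0 : (a * b - 1) * (a - b) = 0 := by
    linear_combination a * b * h - b * ha + a * hb
  rcases mul_eq_zero.1 h0 with h1 | h1
  · left
    exact sub_eq_zero.1 h1
  · right
    exact sub_eq_zero.1 h1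

/-- for `ω ≠ 1` with `ω ^ p = 1`, `ω ^ k = 1` forces `p ∣ k` -/
theorem dvd_of_pow_eq_one (p : ℕ) (hp : p.Prime) (ω : ℂ) (hω1 : ω ≠ 1) (hωp : ω ^ p = 1)
    (k : ℕ) (hk : ω ^ k = 1) : p ∣ k := by
  have h1 : orderOf ω ∣ p := orderOf_dvd_of_pow_eq_one hωp
  have h2 : orderOf ω ∣ k := orderOf_dvd_of_pow_eq_one hk
  rcases (Nat.dvd_prime hp).1 h1 with h | h
  · exact absurd (orderOf_eq_one_iff.1 h) hω1
  · rwa [h] at h2

theorem main : Star.{u} := by
  intro hAlt hPowB hLamIP G _ _ p _ P ζ hHyp hValP hSing hLoc hZodd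
  classical
  haveI : Fintype G := Fintype.ofFinite G
  haveI : Fintype ↥(P : Subgroup G) := Fintype.ofFinite _
  have hHyp' := hHyp
  obtain ⟨hp5, hPcard, hPnn, hirr, hfaith, hdeg⟩ := hHyp'
  have hPc : Nat.card ↥(P : Subgroup G) = p := hPcard
  have hp : p.Prime := Fact.out
  have hValP' := hValP
  obtain ⟨ψ, hψ1, hψval⟩ := hValP'
  obtain ⟨c, hc_odd, hc_two, hb⟩ := hPowB G p (by omega)
  have hbj : ∀ j : ℕ, ∃ b : ℕ, ¬ p ∣ j → (b.Coprime (Nat.card G) ∧
      (∀ x : G, orderOf x = p → x ^ b = x ^ j) ∧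
      (∀ g : G, ¬ p ∣ orderOf g → g ^ b = g ^ c)) := by
    intro j
    by_cases hj : p ∣ j
    · exact ⟨0, fun h => absurd hj h⟩
    · obtain ⟨b, h⟩ := hb j hj
      exact ⟨b, fun _ => h⟩
  choose b hbspec using hbj
  -- `p = 2 s + 3`
  obtain ⟨s, hps, hs2⟩ : ∃ s, p = 2 * s + 3 ∧ 2 ≤ s := by
    have hodd : Odd p := hp.odd_of_ne_two (by omega)
    obtain ⟨t, ht⟩ := hodd
    exact ⟨t - 1, by omega, by omega⟩
  have hp2 : p - 2 = 2 * s + 1 := by omega
  set J : Finset ℕ := (Finset.Icc 1 (s + 1)).erase 2 with hJ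
  have hJmem : ∀ j ∈ J, 1 ≤ j ∧ j ≤ s + 1 ∧ j ≠ 2 := by
    intro j hj
    rw [hJ, Finset.mem_erase, Finset.mem_Icc] at hj
    exact ⟨hj.2.1, hj.2.2, hj.1⟩
  have hndvd : ∀ j, 1 ≤ j → j ≤ s + 1 → ¬ p ∣ j := by
    intro j h1 h2 h
    have := Nat.le_of_dvd (by omega) h
    omega
  have hJcard : J.card = s := by
    rw [hJ, Finset.card_erase_of_mem (by rw [Finset.mem_Icc]; omega), Nat.card_Icc]
    omega
  -- elements of order `p` in `P`
  have hordP : ∀ x ∈ (P : Subgroup G), x ≠ 1 → orderOf x = p := by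
    intro x hx hx1
    have h1 : orderOf x ∣ p := by
      rw [← hPc]
      exact Subgroup.orderOf_dvd_natCard _ hx
    rcases (Nat.dvd_prime hp).1 h1 with h | h
    · exact absurd (orderOf_eq_one_iff.1 h) hx1
    · exact h
  have hPpow : ∀ j, ¬ p ∣ j → ∀ x ∈ (P : Subgroup G), x ^ b j = x ^ j := by
    intro j hj x hx
    by_cases hx1 : x = 1
    · rw [hx1, one_pow, one_pow]
    · exact (hbspec j hj).2.1 x (hordP x hx hx1)
  -- Galois conjugates
  let ξ : ℕ → G → ℂ := fun j g => ζ (g ^ b j)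
  have hξirr : ∀ j, ¬ p ∣ j → IsIrrCharacter G (ξ j) := fun j hj =>
    Cfsg.Agent.Lib.Helper76.GaloisConj.isIrrCharacter_pow hirr (b j) (hbspec j hj).1
  let Ξ : ℕ → IrrCharacter G := fun j =>
    if h : p ∣ j then ⟨ζ, hirr⟩ else ⟨ξ j, hξirr j h⟩
  have hΞ : ∀ j, ¬ p ∣ j → ((Ξ j : IrrCharacter G) : G → ℂ) = ξ j := by
    intro j hj
    show ((if h : p ∣ j then (⟨ζ, hirr⟩ : IrrCharacter G) else ⟨ξ j, hξirr j h⟩ :
      IrrCharacter G) : G → ℂ) = ξ j
    rw [dif_neg hj]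
  -- the exterior square
  set A : G → ℂ := fun g => (ζ g ^ 2 - ζ (g ^ 2)) / 2 with hA
  have hζchar : IsCharacter G ζ := Cfsg.Agent.Lib.CT.Wedderburn.isCharacter_of_irr hirr
  have hAchar : IsCharacter G A := hAlt G ζ hζchar
  -- inner products
  have h2n : ¬ p ∣ 2 := hndvd 2 (by omega) (by omega)
  have hzodd : ∀ z ∈ Subgroup.center G, Odd (orderOf z) := by
    intro z hz
    exact Odd.of_dvd_nat hZodd (Subgroup.orderOf_dvd_natCard _ hz)
  have hip : ∀ j ∈ J, classInner A (ξ j) - classInner A (ξ 2) = 1 := by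
    intro j hj
    obtain ⟨h1, h2, h3⟩ := hJmem j hj
    have hjn := hndvd j h1 h2
    refine hLamIP G p P ζ hHyp hValP hSing hLoc.2.1 (b 2) (b j) j ?_ ?_ ?_ ?_ hjn ?_ ?_
    · intro g hg
      rw [(hbspec j hjn).2.2 g hg, (hbspec 2 h2n).2.2 g hg]
    · intro z hz
      rw [(hbspec 2 h2n).2.2 z (hLoc.2.1 z hz), hc_odd z (hzodd z hz)]
    · exact hPpow 2 h2n
    · exact hPpow j hjn
    · intro h
      have := Nat.le_of_dvd (by omega) h
      omega
    · intro h
      obtain ⟨k, hk⟩ := h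
      have hk1 : k = 1 := by
        rcases Nat.lt_or_ge k 1 with hk0 | hk0
        · have : k = 0 := by omega
          subst this
          omega
        · rcases Nat.lt_or_ge k 2 with hk2 | hk2
          · omega
          · exfalso
            have : p * 2 ≤ p * k := Nat.mul_le_mul_left p hk2
            omega
      subst hk1
      omega
  -- a generator of `P`
  obtain ⟨x₀, hx₀⟩ : ∃ x₀ : ↥(P : Subgroup G), ψ x₀ ≠ 1 := by
    by_contra hcon
    push Not at hcon
    apply hψ1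
    ext x
    rw [hcon x]
    rfl
  have hx₀1 : x₀ ≠ 1 := by
    rintro rfl
    exact hx₀ (map_one ψ)
  set ω : ℂ := ((ψ x₀ : ℂˣ) : ℂ) with hω
  set ω' : ℂ := (((ψ x₀)⁻¹ : ℂˣ) : ℂ) with hω'
  have hωω' : ω * ω' = 1 := by
    rw [hω, hω', ← Units.val_mul, mul_inv_cancel, Units.val_one]
  have hω1 : ω ≠ 1 := by
    intro h
    apply hx₀
    apply Units.ext
    rw [Units.val_one]
    exact h
  have hωp : ω ^ p = 1 := Cfsg.Agent.Lib.Helper81.FTLAMIP.unit_pow_card p hPc ψ x₀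
  have hval : ∀ k : ℕ, ¬ p ∣ k → ζ ((x₀ : G) ^ k) = -(ω ^ k + ω' ^ k) := by
    intro k hk
    have h1 := hψval (x₀ ^ k)
      (Cfsg.Agent.Lib.Helper81.FTLAMIP.pow_ne_one_of_not_dvd p hPc x₀ hx₀1 k hk)
    rw [map_pow, ← inv_pow, Units.val_pow_eq_pow_val, Units.val_pow_eq_pow_val] at h1
    rw [← h1]
    rfl
  -- injectivity
  have hinj : Set.InjOn Ξ (J : Set ℕ) := by
    intro i hi j hj hij
    have hi' := hJmem i (Finset.mem_coe.1 hi)
    have hj' := hJmem j (Finset.mem_coe.1 hj)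
    have hin := hndvd i hi'.1 hi'.2.1
    have hjn := hndvd j hj'.1 hj'.2.1
    have h1 : ξ i = ξ j := by
      rw [← hΞ i hin, ← hΞ j hjn, hij]
    have h2 : ζ ((x₀ : G) ^ b i) = ζ ((x₀ : G) ^ b j) := congrFun h1 (x₀ : G)
    rw [hPpow i hin _ x₀.2, hPpow j hjn _ x₀.2, hval i hin, hval j hjn] at h2
    have h3 : ω ^ i + ω' ^ i = ω ^ j + ω' ^ j := neg_injective h2
    have hi1 : ω ^ i * ω' ^ i = 1 := by rw [← mul_pow, hωω', one_pow]
    have hj1 : ω ^ j * ω' ^ j = 1 := by rw [← mul_pow, hωω', one_pow]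
    rcases eq_or_of_sum_inv _ _ _ _ hi1 hj1 h3 with h4 | h4
    · exfalso
      rw [← pow_add] at h4
      have h5 := dvd_of_pow_eq_one p hp ω hω1 hωp _ h4
      have := Nat.le_of_dvd (by omega) h5
      omega
    · rcases Nat.le_total i j with hle | hle
      · obtain ⟨d, rfl⟩ := Nat.exists_eq_add_of_le hle
        have h5 : ω ^ d = 1 := by
          have hne : ω ^ i ≠ 0 := by
            intro h0
            rw [h0, zero_mul] at hi1
            exact zero_ne_one hi1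
          rw [pow_add] at h4
          have : ω ^ i * ω ^ d = ω ^ i * 1 := by rw [mul_one, ← h4]
          exact mul_left_cancel₀ hne this
        have h6 := dvd_of_pow_eq_one p hp ω hω1 hωp _ h5
        rcases Nat.eq_zero_or_pos d with h0 | h0
        · omega
        · have := Nat.le_of_dvd h0 h6
          omega
      · obtain ⟨d, rfl⟩ := Nat.exists_eq_add_of_le hle
        have h5 : ω ^ d = 1 := by
          have hne : ω ^ j ≠ 0 := by
            intro h0
            rw [h0, zero_mul] at hj1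
            exact zero_ne_one hj1
          rw [pow_add] at h4
          have : ω ^ j * ω ^ d = ω ^ j * 1 := by rw [mul_one, h4]
          exact mul_left_cancel₀ hne this
        have h6 := dvd_of_pow_eq_one p hp ω hω1 hωp _ h5
        rcases Nat.eq_zero_or_pos d with h0 | h0
        · omega
        · have := Nat.le_of_dvd h0 h6
          omega
  -- the constituents
  set S : Finset (IrrCharacter G) := J.image Ξ with hSdef
  have hS : ∀ φ ∈ S, classInner A (φ : G → ℂ) ≠ 0 := by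
    intro φ hφ
    rw [hSdef, Finset.mem_image] at hφ
    obtain ⟨j, hj, rfl⟩ := hφ
    obtain ⟨h1, h2, h3⟩ := hJmem j hj
    rw [hΞ j (hndvd j h1 h2)]
    obtain ⟨m, hm⟩ := Cfsg.Agent.Lib.CT.Clifford.classInner_char_nat hAchar
      (Cfsg.Agent.Lib.CT.Wedderburn.isCharacter_of_irr (hξirr 2 h2n))
    have h4 := hip j hj
    rw [hm] at h4
    have h5 : classInner A (ξ j) = ((m + 1 : ℕ) : ℂ) := by
      push_cast
      linear_combination h4
    rw [h5]
    exact Nat.cast_ne_zero.2 (Nat.succ_ne_zero m)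
  have hζ1 : ζ 1 = ((2 * s + 1 : ℕ) : ℂ) := by
    rw [← Cfsg.Agent.Lib.CT.Wedderburn.char_natCast_charDegree hζchar, hdeg, hp2]
  have hdegA : charDegree A = s * (2 * s + 1) := by
    apply Cfsg.Agent.Lib.CT.Wedderburn.charDegree_eq_of_apply_one
    show (ζ 1 ^ 2 - ζ (1 ^ 2)) / 2 = ((s * (2 * s + 1) : ℕ) : ℂ)
    rw [one_pow, hζ1]
    push_cast
    ring
  have hdegS : ∑ φ ∈ S, charDegree (φ : G → ℂ) = s * (2 * s + 1) := by
    rw [hSdef, Finset.sum_image hinj]
    have : ∀ j ∈ J, charDegree ((Ξ j : IrrCharacter G) : G → ℂ) = 2 * s + 1 := by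
      intro j hj
      obtain ⟨h1, h2, h3⟩ := hJmem j hj
      rw [hΞ j (hndvd j h1 h2), ← hp2, ← hdeg]
      show ⌊(ζ (1 ^ b j)).re⌋₊ = ⌊(ζ 1).re⌋₊
      rw [one_pow]
    rw [Finset.sum_congr rfl this, Finset.sum_const, hJcard, smul_eq_mul]
  obtain ⟨hsum, -⟩ := Cfsg.Agent.Lib.Helper67.BrL24.eq_sum_of_degree_le A hAchar S hS
    (by rw [hdegA, hdegS])
  have hmain : ∀ g : G, ¬ p ∣ orderOf g →
      ζ g ^ 2 - ζ (g ^ 2) = ((p : ℂ) - 3) * ζ (g ^ c) := by
    intro g hg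
    have h1 := hsum g
    rw [hSdef, Finset.sum_image hinj] at h1
    have h2 : ∀ j ∈ J, ((Ξ j : IrrCharacter G) : G → ℂ) g = ζ (g ^ c) := by
      intro j hj
      obtain ⟨h1, h2, h3⟩ := hJmem j hj
      rw [hΞ j (hndvd j h1 h2)]
      show ζ (g ^ b j) = ζ (g ^ c)
      rw [(hbspec j (hndvd j h1 h2)).2.2 g hg]
    rw [Finset.sum_congr rfl h2, Finset.sum_const, hJcard, nsmul_eq_mul] at h1
    have h3 : (ζ g ^ 2 - ζ (g ^ 2)) / 2 = (s : ℂ) * ζ (g ^ c) := h1
    have hpc : (p : ℂ) = 2 * (s : ℂ) + 3 := by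
      rw [hps]
      push_cast
      ring
    rw [hpc]
    linear_combination 2 * h3
  constructor
  · intro g hg hodd
    have h1 := hmain g hg
    rw [hc_odd g hodd] at h1
    linear_combination h1
  · intro g k hk
    have hg : ¬ p ∣ orderOf g := by
      rw [hk]
      intro h
      have h1 := hp.dvd_of_dvd_pow h
      have := Nat.le_of_dvd (by omega) h1
      omega
    have h1 := hmain g hg
    rw [hc_two g k hk] at h1
    exact h1

end Cfsg.Agent.Lib.Helper81.FTSTAR
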