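import Mathlib
import Cfsg.Agent.Lib.Helper18.ReeMultStmt

/-!
# S2113 piece ZT: lifts of `x 0 0 v` and `x t 0 0` commute
-/

set_option autoImplicit false

namespace Cfsg.Agent.Lib.Helper81.ReeMultZT

open Cfsg.Agent.Lib.Helper18.ReeMultStmt

universe u v w

open scoped IsMulCommutative in
theorem main (hEXR : EXR.{v}) (hMIX : MIXFORM.{v, w}) : ZT.{u, v, w} := by
  intro Γ _ G _ K _ _ m φ x e σ E hZZ hZU v t
  have P := E.par
  have hs := E.surj
  have hc := E.cen
  have hcomm : ∀ a b : K, x 0 0 a * x b 0 0 = x b 0 0 * x 0 0 a := by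
    intro a b
    rw [P.x_mul, P.x_mul]
    simp
  let B : K → K → ↥(Subgroup.center Γ) := fun a b =>
    ⟨cm σ hs (x 0 0 a) (x b 0 0), hc (cm_mem_ker σ hs (hcomm a b))⟩
  have hB : ∀ a b, B a b = 1 := by
    obtain ⟨r, hr0, -, hr3⟩ := hEXR K m P.hm P.cardK
    apply hMIX K φ (↥(Subgroup.center Γ)) B P.char3 P.phi3 ⟨r, hr3⟩
    · intro a a' b
      apply Subtype.ext
      show cm σ hs (x 0 0 (a + a')) (x b 0 0) =
        cm σ hs (x 0 0 a) (x b 0 0) * cm σ hs (x 0 0 a') (x b 0 0)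
      have h1 : x 0 0 (a + a') = x 0 0 a * x 0 0 a' := by
        rw [P.x_mul]; simp
      rw [h1, cm_mul_left_c σ hs hc (hcomm a' b)]
    · intro a b b'
      apply Subtype.ext
      show cm σ hs (x 0 0 a) (x (b + b') 0 0) =
        cm σ hs (x 0 0 a) (x b 0 0) * cm σ hs (x 0 0 a) (x b' 0 0)
      have h1 : x b 0 0 * x b' 0 0 = x (b + b') 0 0 * x 0 (- b * φ b' ^ 3) 0 *
          x 0 0 (- b ^ 2 * φ b' ^ 3 + b * b' * φ b' ^ 3) := by
        rw [P.x_mul, P.x_mul, P.x_mul]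
        simp only [map_zero]
        congr 1 <;> ring
      have h2 : cm σ hs (x 0 0 a) (x b 0 0 * x b' 0 0) =
          cm σ hs (x 0 0 a) (x b 0 0) * cm σ hs (x 0 0 a) (x b' 0 0) :=
        cm_mul_right_c σ hs hc (hcomm a b')
      rw [← h2, h1, cm_mul_right_one σ hs hc (hZZ a _), cm_mul_right_one σ hs hc (hZU a _)]
    · intro s a b hs0
      apply Subtype.ext
      show cm σ hs (x 0 0 (s * a)) (x (s ^ 2 / φ s ^ 3 * b) 0 0) = cm σ hs (x 0 0 a) (x b 0 0)
      have hconj : ∀ t u v, e s * x t u v * (e s)⁻¹ =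
          x (s ^ 2 / φ s ^ 3 * t) (φ s ^ 3 / s * u) (s * v) := by
        intro t u v
        rw [P.e_x s hs0, mul_inv_cancel_right]
      have h1 := conj_cm σ hs hc (sec σ hs (e s)) (x 0 0 a) (x b 0 0)
      rw [sec_spec, hconj, hconj] at h1
      simp only [mul_zero] at h1
      rw [← h1, cm_central σ hs hc (hcomm a b), mul_inv_cancel_right]
  exact congrArg Subtype.val (hB v t)

end Cfsg.Agent.Lib.Helper81.ReeMultZT
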