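import Cfsg.Agent.Lib.Helper14.TC3Stmt
import Cfsg.Agent.Lib.CT.Wedderburn
import Cfsg.Agent.Lib.CT.Orth
import Cfsg.Agent.Lib.CT.Ops
import Cfsg.Agent.Lib.CT.Kernel
import Cfsg.Agent.Lib.CT.LinChar
import Cfsg.Agent.Lib.CT.Clifford
import Cfsg.Agent.Lib.Helper67.BrL24
import Cfsg.Agent.Lib.Helper3.MGroup

/-!
# S4460 piece H2: some product of two characters of degree `m` has a constituent of degree `n`
-/

set_option autoImplicit false
set_option linter.style.haveILetI false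
set_option linter.unusedSectionVars false

namespace Cfsg.Agent.Lib.Helper81.TC3H2

open Cfsg Cfsg.Agent.Lib.Helper14.TC3Stmt
open Cfsg.Agent.Lib.CT.Wedderburn Cfsg.Agent.Lib.CT.Orth Cfsg.Agent.Lib.CT.Ops
open Cfsg.Agent.Lib.CT.Clifford
open scoped ComplexConjugate commutatorElement

universe u

variable {G : Type u} [Group G] [Fintype G]

/-- the dual of an irreducible character -/
noncomputable def dual (φ : IrrCharacter G) : IrrCharacter G :=
  ⟨fun g => (φ : G → ℂ) g⁻¹, isIrrCharacter_inv_arg φ.2⟩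

theorem dual_apply (φ : IrrCharacter G) (g : G) :
    (dual φ : G → ℂ) g = conj ((φ : G → ℂ) g) :=
  char_apply_inv (isCharacter_of_irr φ.2) g

theorem deg_dual (φ : IrrCharacter G) :
    charDegree (dual φ : G → ℂ) = charDegree (φ : G → ℂ) := by
  unfold charDegree
  show ⌊((φ : G → ℂ) (1 : G)⁻¹).re⌋₊ = _
  rw [inv_one]

/-- adjointness -/
theorem inner_adj (φ θ ψ : IrrCharacter G) :
    classInner (fun g => (φ : G → ℂ) g * (ψ : G → ℂ) g) (θ : G → ℂ) =
      conj (classInner (fun g => (dual φ : G → ℂ) g * (θ : G → ℂ) g) (ψ : G → ℂ)) := by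
  unfold classInner
  rw [map_mul, map_inv₀, Complex.conj_natCast, map_sum]
  congr 1
  refine Finset.sum_congr rfl fun g _ => ?_
  show (φ : G → ℂ) g * (ψ : G → ℂ) g * conj ((θ : G → ℂ) g) =
    conj ((dual φ : G → ℂ) g * (θ : G → ℂ) g * conj ((ψ : G → ℂ) g))
  rw [dual_apply, map_mul, map_mul, Complex.conj_conj, Complex.conj_conj]
  ring

theorem main : Cfsg.Agent.Lib.Helper14.TC3Stmt.H2.{u} := by
  intro G _ _ m n hDeg hm hmn hHm hHn hU
  classical
  haveI := finite_irrCharacter G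
  letI : Fintype (IrrCharacter G) := Fintype.ofFinite _
  by_contra hcon
  push Not at hcon
  have hn1 : 1 < n := lt_trans hm hmn
  have hchar : ∀ φ : IrrCharacter G, IsCharacter G (φ : G → ℂ) :=
    fun φ => isCharacter_of_irr φ.2
  have hdeg1 : ∀ φ : IrrCharacter G, (φ : G → ℂ) 1 = (charDegree (φ : G → ℂ) : ℂ) :=
    fun φ => (char_natCast_charDegree (hchar φ)).symm
  -- Step 1
  have step1 : ∀ φ₁ φ₂ ψ : IrrCharacter G, charDegree (φ₁ : G → ℂ) ≠ n →
      charDegree (φ₂ : G → ℂ) ≠ n → charDegree (ψ : G → ℂ) = n →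
      classInner (fun g => (φ₁ : G → ℂ) g * (φ₂ : G → ℂ) g) (ψ : G → ℂ) = 0 := by
    intro φ₁ φ₂ ψ h1 h2 hψ
    rcases hDeg φ₁ with e1 | e1 | e1
    · have hl : (φ₁ : G → ℂ) 1 = 1 := by
        rw [hdeg1, e1]
        simp
      have hirr : IsIrrCharacter G ((φ₁ : G → ℂ) * (φ₂ : G → ℂ)) :=
        Cfsg.Agent.Lib.CT.LinChar.isIrrCharacter_linear_mul (hchar φ₁) hl φ₂.2
      have hd : charDegree ((φ₁ : G → ℂ) * (φ₂ : G → ℂ)) = charDegree (φ₂ : G → ℂ) := by
        apply charDegree_eq_of_apply_one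
        show (φ₁ : G → ℂ) 1 * (φ₂ : G → ℂ) 1 = _
        rw [hl, one_mul, hdeg1]
      have h3 := irr_orthonormal (⟨_, hirr⟩ : IrrCharacter G) ψ
      rw [if_neg] at h3
      · exact h3
      · intro h
        apply h2
        rw [← hψ, ← h]
        exact hd.symm
    · rcases hDeg φ₂ with e2 | e2 | e2
      · have hl : (φ₂ : G → ℂ) 1 = 1 := by
          rw [hdeg1, e2]
          simp
        have hirr : IsIrrCharacter G ((φ₁ : G → ℂ) * (φ₂ : G → ℂ)) :=
          Cfsg.Agent.Lib.CT.LinChar.isIrrCharacter_mul_linear φ₁.2 (hchar φ₂) hl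
        have hd : charDegree ((φ₁ : G → ℂ) * (φ₂ : G → ℂ)) = charDegree (φ₁ : G → ℂ) := by
          apply charDegree_eq_of_apply_one
          show (φ₁ : G → ℂ) 1 * (φ₂ : G → ℂ) 1 = _
          rw [hl, mul_one, hdeg1]
        have h3 := irr_orthonormal (⟨_, hirr⟩ : IrrCharacter G) ψ
        rw [if_neg] at h3
        · exact h3
        · intro h
          apply h1
          rw [← hψ, ← h]
          exact hd.symm
      · exact hcon φ₁ φ₂ ψ e1 e2 hψ
      · exact absurd e2 h2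
    · exact absurd e1 h1
  -- Step 2
  have step2 : ∀ φ θ ψ' : IrrCharacter G, charDegree (φ : G → ℂ) ≠ n →
      charDegree (θ : G → ℂ) ≠ n → charDegree (ψ' : G → ℂ) = n →
      classInner (fun g => (φ : G → ℂ) g * (ψ' : G → ℂ) g) (θ : G → ℂ) = 0 := by
    intro φ θ ψ' h1 h2 hψ
    rw [inner_adj, step1 (dual φ) θ ψ' (by rw [deg_dual]; exact h1) h2 hψ, map_zero]
  set W : Finset (IrrCharacter G) :=
    Finset.univ.filter (fun ψ : IrrCharacter G => charDegree (ψ : G → ℂ) = n) with hW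
  -- Step 3
  have step3 : ∀ φ ψ' : IrrCharacter G, charDegree (φ : G → ℂ) ≠ n →
      charDegree (ψ' : G → ℂ) = n →
      ∑ ψ ∈ W, classInner (fun g => (φ : G → ℂ) g * (ψ' : G → ℂ) g) (ψ : G → ℂ) =
        (charDegree (φ : G → ℂ) : ℂ) := by
    intro φ ψ' h1 hψ'
    have hΦ : IsCharacter G (fun g => (φ : G → ℂ) g * (ψ' : G → ℂ) g) :=
      isCharacter_mul (hchar φ) (hchar ψ')
    have hmult : ∀ θ : IrrCharacter G, ∃ k : ℕ,
        classInner (fun g => (φ : G → ℂ) g * (ψ' : G → ℂ) g) (θ : G → ℂ) = k :=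
      fun θ => classInner_char_nat hΦ (hchar θ)
    choose mult hmult using hmult
    have hexp := Cfsg.Agent.Lib.Helper67.BrL24.degree_expand _ hΦ mult hmult
    have hdΦ : charDegree (fun g => (φ : G → ℂ) g * (ψ' : G → ℂ) g) =
        charDegree (φ : G → ℂ) * n := by
      apply charDegree_eq_of_apply_one
      show (φ : G → ℂ) 1 * (ψ' : G → ℂ) 1 = _
      rw [hdeg1, hdeg1, hψ']
      push_cast
      rfl
    have hsum : ∑ θ : IrrCharacter G, mult θ * charDegree (θ : G → ℂ) =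
        (∑ θ ∈ W, mult θ) * n := by
      rw [Finset.sum_mul, hW, Finset.sum_filter]
      refine Finset.sum_congr rfl fun θ _ => ?_
      by_cases hθ : charDegree (θ : G → ℂ) = n
      · rw [if_pos hθ, hθ]
      · rw [if_neg hθ]
        have h0 := step2 φ θ ψ' h1 hθ hψ'
        rw [hmult θ] at h0
        have h00 : mult θ = 0 := by exact_mod_cast h0
        rw [h00, zero_mul]
    have hnat : ∑ θ ∈ W, mult θ = charDegree (φ : G → ℂ) := by
      rw [hdΦ, hsum] at hexp
      exact (Nat.eq_of_mul_eq_mul_right (by omega) hexp).symm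
    rw [Finset.sum_congr rfl (fun ψ _ => hmult ψ), ← Nat.cast_sum, hnat]
  -- Step 4
  set Ψ : G → ℂ := fun g => ∑ ψ ∈ W, (n : ℂ) * (ψ : G → ℂ) g with hΨ
  have step4 : ∀ φ : IrrCharacter G, charDegree (φ : G → ℂ) ≠ n → ∀ g,
      (φ : G → ℂ) g * Ψ g = (charDegree (φ : G → ℂ) : ℂ) * Ψ g := by
    intro φ h1 g
    set f : G → ℂ := fun g => (φ : G → ℂ) g * Ψ g with hf
    have hfcl : IsClassFunction G f := by
      intro x y
      show (φ : G → ℂ) (y * x * y⁻¹) * Ψ (y * x * y⁻¹) = (φ : G → ℂ) x * Ψ x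
      rw [irr_isClassFunction φ x y]
      congr 1
      show ∑ ψ ∈ W, (n : ℂ) * (ψ : G → ℂ) (y * x * y⁻¹) = ∑ ψ ∈ W, (n : ℂ) * (ψ : G → ℂ) x
      exact Finset.sum_congr rfl fun ψ _ => by rw [irr_isClassFunction ψ x y]
    have hinner : ∀ θ : IrrCharacter G, classInner f (θ : G → ℂ) =
        if charDegree (θ : G → ℂ) = n then (n : ℂ) * (charDegree (φ : G → ℂ) : ℂ) else 0 := by
      intro θ
      have hfsum : f = ∑ ψ' ∈ W, (n : ℂ) • (fun g => (φ : G → ℂ) g * (ψ' : G → ℂ) g) := by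
        funext x
        rw [Finset.sum_apply]
        show (φ : G → ℂ) x * ∑ ψ ∈ W, (n : ℂ) * (ψ : G → ℂ) x =
          ∑ ψ' ∈ W, (n : ℂ) * ((φ : G → ℂ) x * (ψ' : G → ℂ) x)
        rw [Finset.mul_sum]
        exact Finset.sum_congr rfl fun ψ _ => by ring
      rw [hfsum, classInner_sum_left]
      simp only [classInner_smul_left]
      by_cases hθ : charDegree (θ : G → ℂ) = n
      · rw [if_pos hθ, ← Finset.mul_sum]
        congr 1
        rw [Finset.sum_congr rfl (fun ψ' _ => inner_adj φ θ ψ'), ← map_sum,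
          step3 (dual φ) θ (by rw [deg_dual]; exact h1) hθ, deg_dual, Complex.conj_natCast]
      · rw [if_neg hθ]
        apply Finset.sum_eq_zero
        intro ψ' hψ'
        rw [step2 φ θ ψ' h1 hθ ((Finset.mem_filter.1 hψ').2), mul_zero]
    have e1 : (φ : G → ℂ) g * Ψ g = f g := rfl
    rw [e1, classFunction_expand_sum f hfcl g, Finset.sum_congr rfl (fun θ _ => by rw [hinner θ])]
    show ∑ θ : IrrCharacter G, (if charDegree (θ : G → ℂ) = n then
        (n : ℂ) * (charDegree (φ : G → ℂ) : ℂ) else 0) * (θ : G → ℂ) g =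
      (charDegree (φ : G → ℂ) : ℂ) * ∑ ψ ∈ W, (n : ℂ) * (ψ : G → ℂ) g
    rw [Finset.mul_sum, hW, Finset.sum_filter]
    refine Finset.sum_congr rfl fun θ _ => ?_
    by_cases hθ : charDegree (θ : G → ℂ) = n
    · rw [if_pos hθ, if_pos hθ]
      ring
    · rw [if_neg hθ, if_neg hθ, zero_mul]
  -- Step 5: the kernel
  have hker : ∀ φ : IrrCharacter G, ∃ N : Subgroup G, N.Normal ∧
      ∀ g, g ∈ N ↔ (φ : G → ℂ) g = (φ : G → ℂ) 1 :=
    fun φ => Cfsg.Agent.Lib.CT.Kernel.exists_normal_ker (hchar φ)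
  choose Nk hNk1 hNk2 using hker
  set K₀ : Subgroup G :=
    ⨅ φ : {φ : IrrCharacter G // charDegree (φ : G → ℂ) ≠ n}, Nk φ.1 with hK₀
  have hK₀n : K₀.Normal := Subgroup.normal_iInf_normal (fun φ => hNk1 φ.1)
  have hK₀mem : ∀ g, g ∈ K₀ ↔ ∀ φ : IrrCharacter G, charDegree (φ : G → ℂ) ≠ n →
      (φ : G → ℂ) g = (φ : G → ℂ) 1 := by
    intro g
    rw [hK₀, Subgroup.mem_iInf]
    constructor
    · intro h φ hφ
      exact (hNk2 φ g).1 (h ⟨φ, hφ⟩)
    · intro h φ
      exact (hNk2 φ.1 g).2 (h φ.1 φ.2)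
  have hΨK : ∀ g, Ψ g ≠ 0 → g ∈ K₀ := by
    intro g hg
    rw [hK₀mem]
    intro φ hφ
    have h4 := step4 φ hφ g
    rw [hdeg1]
    exact mul_right_cancel₀ hg h4
  by_cases hbot : K₀ = ⊥
  · have hvan : ∀ g, g ≠ 1 → Ψ g = 0 := by
      intro g hg
      by_contra h
      have h5 := hΨK g h
      rw [hbot, Subgroup.mem_bot] at h5
      exact hg h5
    let one : IrrCharacter G := ⟨fun _ => 1, isIrrCharacter_one⟩
    have hone : charDegree (one : G → ℂ) = 1 :=
      charDegree_eq_of_apply_one (by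
        show (1 : ℂ) = ((1 : ℕ) : ℂ)
        simp)
    have h1 : classInner Ψ (one : G → ℂ) = (Nat.card G : ℂ)⁻¹ * Ψ 1 := by
      unfold classInner
      congr 1
      rw [Finset.sum_eq_single 1]
      · show Ψ 1 * conj (1 : ℂ) = Ψ 1
        simp
      · intro g _ hg
        rw [hvan g hg, zero_mul]
      · intro h
        exact absurd (Finset.mem_univ _) h
    have h2 : classInner Ψ (one : G → ℂ) = 0 := by
      have hΨsum : Ψ = ∑ ψ ∈ W, (n : ℂ) • (ψ : G → ℂ) := by
        funext x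
        rw [Finset.sum_apply]
        rfl
      rw [hΨsum, classInner_sum_left]
      apply Finset.sum_eq_zero
      intro ψ hψ
      rw [classInner_smul_left, irr_orthonormal, if_neg, mul_zero]
      intro h
      have hd : charDegree (ψ : G → ℂ) = n := (Finset.mem_filter.1 hψ).2
      rw [h, hone] at hd
      omega
    obtain ⟨ψ₀, hψ₀⟩ := hHn
    have hΨ1 : Ψ 1 = (W.card : ℂ) * ((n : ℂ) * (n : ℂ)) := by
      show ∑ ψ ∈ W, (n : ℂ) * (ψ : G → ℂ) 1 = _
      rw [Finset.sum_congr rfl (fun ψ hψ => by rw [hdeg1, (Finset.mem_filter.1 hψ).2]),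
        Finset.sum_const, nsmul_eq_mul]
    have hWpos : 0 < W.card :=
      Finset.card_pos.2 ⟨ψ₀, Finset.mem_filter.2 ⟨Finset.mem_univ _, hψ₀⟩⟩
    rw [h2] at h1
    have hcard : (Nat.card G : ℂ) ≠ 0 := Nat.cast_ne_zero.2 Nat.card_pos.ne'
    have hΨ0 : Ψ 1 = 0 := by
      rcases mul_eq_zero.1 h1.symm with h | h
      · exact absurd (inv_eq_zero.1 h) hcard
      · exact h
    rw [hΨ1] at hΨ0
    have hn0 : (n : ℂ) ≠ 0 := Nat.cast_ne_zero.2 (by omega)
    have hW0 : (W.card : ℂ) ≠ 0 := Nat.cast_ne_zero.2 hWpos.ne'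
    exact (mul_ne_zero hW0 (mul_ne_zero hn0 hn0)) hΨ0
  · have hle := hU K₀ hK₀n hbot
    obtain ⟨χ, hχ⟩ := hHm
    have hχn : charDegree (χ : G → ℂ) ≠ n := by omega
    have hlin : (χ : G → ℂ) 1 = 1 := by
      apply Cfsg.Agent.Lib.Helper3.MGroup.apply_one_eq_one_of_comm χ.2
      intro a b
      have hab : ⁅a, b⁆ ∈ commutator G :=
        Subgroup.commutator_mem_commutator (Subgroup.mem_top a) (Subgroup.mem_top b)
      exact (hK₀mem _).1 (hle hab) χ hχn
    rw [hdeg1, hχ] at hlin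
    have hm1 : m = 1 := by exact_mod_cast hlin
    omega

end Cfsg.Agent.Lib.Helper81.TC3H2
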